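import Cfsg.Agent.Lib.SmallGroups.BrauerReynoldsMain
import Cfsg.Agent.Lib.Cores.PCore

/-!
# Brauer's theorem for perfect groups with Sylow subgroups of order `p`

If `n_p = 1 + n p` and `n` is no value of `(h u p + u² + u + h) / (u + 1)`, then `G / O_p'(G)` is
`PSL(2, p)` or `PSL(2, 2 ^ m)`.
-/

set_option autoImplicit false
set_option linter.style.haveILetI false

open scoped commutatorElement

namespace CfsgLib.SmallGroups.BrauerReynolds

open Cfsg

/-- The simple normal subgroup of a perfect group with trivial `p'`-core and Sylow order `p`. -/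
theorem exists_simple_normal {Q : Type*} [Group Q] [Finite Q] {p : ℕ} [hp : Fact p.Prime]
    (hcore : Cfsg.pPrimeCore p Q = ⊥) (hperfQ : commutator Q = ⊤) (R : Sylow p Q)
    (hR : Nat.card ↥(R : Subgroup Q) = p) :
    ∃ M : Subgroup Q, M.Normal ∧ IsSimpleGroup M ∧ ¬ IsMulCommutative M ∧ (R : Subgroup Q) ≤ M := by
  classical
  set M := Subgroup.normalClosure ((R : Subgroup (Q)) : Set (Q)) with hM
  haveI hMn : M.Normal := Subgroup.normalClosure_normal
  have hRM : (R : Subgroup (Q)) ≤ M := Subgroup.le_normalClosure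
  have hpM : p ∣ Nat.card M := hR ▸ Subgroup.card_dvd_of_le hRM
  have hMsub : ∀ L : Subgroup M, L.Normal → L = ⊥ ∨ L = ⊤ := by
    intro L hL
    by_cases hpL : p ∣ Nat.card L
    · right
      obtain ⟨x, hx⟩ := exists_prime_orderOf_dvd_card' p hpL
      let Z := (Subgroup.zpowers ((x : M) : Q))
      have hZ : Nat.card Z = p := by rw [Nat.card_zpowers, Subgroup.orderOf_coe, Subgroup.orderOf_coe, hx]
      obtain ⟨S, hS⟩ := (IsPGroup.of_card (p := p) (n := 1) (G := Z) (by rw [hZ, pow_one])).exists_le_sylow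
      have hScard : Nat.card ↥(S : Subgroup (Q)) = p :=
        (Sylow.card_eq_multiplicity S).trans ((Sylow.card_eq_multiplicity R).symm.trans hR)
      have hSZ : (S : Subgroup (Q)) = Z :=
        (Subgroup.eq_of_le_of_card_ge hS (by rw [hScard, hZ])).symm
      have hSM : ∀ T : Sylow p (Q), (T : Subgroup (Q)) ≤ M := fun T => by
        obtain ⟨g, rfl⟩ := MulAction.exists_smul_eq (Q) R T
        rintro _ ⟨w, hw, rfl⟩
        exact hMn.conj_mem w (hRM hw) g
      have hall : ∀ T : Sylow p (Q), (T : Subgroup (Q)) ≤ L.map M.subtype := by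
        intro T
        obtain ⟨g, hg⟩ := MulAction.exists_smul_eq M (S.subtype (hSM S)) (T.subtype (hSM T))
        intro w hw
        have hw' : (⟨w, hSM T hw⟩ : M) ∈ ((T.subtype (hSM T)) : Subgroup M) := by
          simpa [Sylow.coe_subtype, Subgroup.mem_subgroupOf] using hw
        rw [← hg] at hw'
        obtain ⟨v, hv, hvw⟩ := hw'
        have hvL : v ∈ L := by
          have h1 : (v : Q) ∈ Z := by
            rw [← hSZ]; simpa [Sylow.coe_subtype, Subgroup.mem_subgroupOf] using hv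
          obtain ⟨i, hi⟩ := Subgroup.mem_zpowers_iff.1 h1
          have : v = (x : M) ^ i := Subtype.ext (by rw [← hi]; simp)
          rw [this]
          exact L.zpow_mem x.2 i
        refine ⟨⟨w, hSM T hw⟩, ?_, rfl⟩
        rw [← hvw]
        exact hL.conj_mem v hvL g
      have hMle : M ≤ L.map M.subtype := by
        refine (Subgroup.closure_le _).2 ?_
        intro w hw
        obtain ⟨a, ha, hconj⟩ := Group.mem_conjugatesOfSet_iff.1 hw
        obtain ⟨g, hg⟩ := isConj_iff.1 hconj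
        exact hall (g • R) ⟨a, ha, hg⟩
      rw [eq_top_iff]
      intro w _
      obtain ⟨v, hv, hvw⟩ := hMle w.2
      rwa [show w = v from Subtype.ext hvw.symm]
    · left
      have h1 : L ≤ Cfsg.pPrimeCore p M := CfsgLib.Cores.le_pPrimeCore_of_not_dvd hp.out hpL
      have h2 := CfsgLib.Cores.map_subtype_pPrimeCore_le (p := p) (N := M) (Subgroup.Normal.isSubnormal hMn)
      rw [hcore, le_bot_iff, Subgroup.map_eq_bot_iff_of_injective _ M.subtype_injective] at h2
      rwa [h2, le_bot_iff] at h1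
  haveI hnt : Nontrivial M := Finite.one_lt_card_iff_nontrivial.1
    (lt_of_lt_of_le hp.out.one_lt (Nat.le_of_dvd Nat.card_pos hpM))
  haveI hsimple : IsSimpleGroup M := ⟨hMsub⟩
  refine ⟨M, hMn, hsimple, fun hnc => ?_, hRM⟩
  have hc0 : IsCyclic M := by
    letI : CommGroup M := { (inferInstance : Group M) with mul_comm := hnc.is_comm.comm }
    exact IsSimpleGroup.isCyclic
  haveI := hc0
  letI : CommGroup M := IsCyclic.commGroup
  have hMprime : (Nat.card M).Prime := IsSimpleGroup.prime_card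
  have hMp : Nat.card M = p := ((Nat.prime_dvd_prime_iff_eq hp.out hMprime).1 hpM).symm
  have hMR : M = (R : Subgroup (Q)) :=
    (Subgroup.eq_of_le_of_card_ge hRM (by rw [hR, hMp])).symm
  haveI hRn : (R : Subgroup (Q)).Normal := hMR ▸ hMn
  haveI : IsCyclic ↥(R : Subgroup (Q)) := isCyclic_of_prime_card hR
  letI : CommGroup ↥(R : Subgroup (Q)) := IsCyclic.commGroup
  have hidx : Nat.Coprime (Nat.card ↥(R : Subgroup (Q))) (R : Subgroup (Q)).index := by
    rw [hR]; exact hp.out.coprime_iff_not_dvd.2 R.not_dvd_index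
  obtain ⟨H, hH⟩ := Subgroup.exists_right_complement'_of_coprime hidx
  have hcent : ∀ g : Q, ∀ z ∈ (R : Subgroup (Q)), g * z = z * g := by
    intro g z hz
    let φ : Q →* MulAut ↥(R : Subgroup (Q)) := MulAut.conjNormal
    haveI : Fact (Nat.card ↥(R : Subgroup (Q))).Prime := ⟨by rw [hR]; exact hp.out⟩
    let ψ := (IsCyclic.mulAutMulEquiv ↥(R : Subgroup (Q))).toMonoidHom.comp φ
    have h1 : commutator (Q) ≤ ψ.ker := Abelianization.commutator_subset_ker ψ
    rw [hperfQ] at h1
    have h2 : ψ g = 1 := h1 (Subgroup.mem_top g)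
    have h3 : φ g = 1 := (IsCyclic.mulAutMulEquiv ↥(R : Subgroup (Q))).injective
      (h2.trans (map_one _).symm)
    have h4 : g * z * g⁻¹ = z := by
      have := congrArg (fun f : MulAut ↥(R : Subgroup (Q)) => ((f ⟨z, hz⟩ : ↥(R : Subgroup (Q))) : Q)) h3
      simpa [φ, MulAut.conjNormal_apply] using this
    exact mul_inv_eq_iff_eq_mul.1 h4
  haveI hHn : H.Normal := by
    refine ⟨fun w hw g => ?_⟩
    obtain ⟨⟨z, v⟩, rfl⟩ := hH.2 g
    have : (z : Q) * v * w * ((z : Q) * v)⁻¹ = v * w * (v : Q)⁻¹ := by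
      have hc := hcent ((v : Q) * w * (v : Q)⁻¹) z z.2
      calc (z : Q) * v * w * ((z : Q) * v)⁻¹
          = (z : Q) * ((v : Q) * w * (v : Q)⁻¹) * (z : Q)⁻¹ := by group
        _ = _ := by rw [← hc]; group
    show (z : Q) * v * w * ((z : Q) * v)⁻¹ ∈ H
    rw [this]
    exact H.mul_mem (H.mul_mem v.2 hw) (H.inv_mem v.2)
  have hHtop : H = ⊤ := by
    refine top_le_iff.1 ?_
    rw [← hperfQ]
    refine (commutator_eq_closure (Q)).le.trans ((Subgroup.closure_le _).2 ?_)
    rintro _ ⟨a, b, rfl⟩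
    obtain ⟨⟨y, v⟩, rfl⟩ := hH.2 a
    obtain ⟨⟨z, w⟩, rfl⟩ := hH.2 b
    show ⁅(y : Q) * v, (z : Q) * w⁆ ∈ H
    have hy := fun g => hcent g y y.2
    have hz := fun g => hcent g z z.2
    have : ⁅(y : Q) * v, (z : Q) * w⁆ = ⁅(v : Q), (w : Q)⁆ := by
      simp only [commutatorElement_def]
      calc (y : Q) * v * ((z : Q) * w) * ((y : Q) * v)⁻¹ * ((z : Q) * w)⁻¹
          = (y : Q) * ((v : Q) * z) * w * (v : Q)⁻¹ * (y : Q)⁻¹ * (w : Q)⁻¹ * (z : Q)⁻¹ := by group
        _ = (y : Q) * ((z : Q) * (v * w * (v : Q)⁻¹)) * (y : Q)⁻¹ * (w : Q)⁻¹ * (z : Q)⁻¹ := by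
            rw [hz v]; group
        _ = (z : Q) * (v * w * (v : Q)⁻¹) * (w : Q)⁻¹ * (z : Q)⁻¹ := by
            rw [← hy ((z : Q) * (v * w * (v : Q)⁻¹))]; group
        _ = ((z : Q) * (v * w * (v : Q)⁻¹ * (w : Q)⁻¹)) * (z : Q)⁻¹ := by group
        _ = _ := by rw [← hz (v * w * (v : Q)⁻¹ * (w : Q)⁻¹)]; group
    rw [this, commutatorElement_def]
    exact H.mul_mem (H.mul_mem (H.mul_mem v.2 w.2) (H.inv_mem v.2)) (H.inv_mem w.2)
  have h5 := hH.card_mul
  rw [hHtop, Subgroup.card_top, hR] at h5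
  have : 0 < Nat.card (Q) := Nat.card_pos
  have := hp.out.two_le
  nlinarith


/-- The number of Sylow subgroups of the normal subgroup containing them. -/
theorem card_sylow_eq_of_normal {Q : Type*} [Group Q] [Finite Q] {p : ℕ} [hp : Fact p.Prime]
    (M : Subgroup Q) [hMn : M.Normal] (R : Sylow p Q) (hRM : (R : Subgroup Q) ≤ M) :
    Nat.card (Sylow p M) = Nat.card (Sylow p Q) := by
  have hall : ∀ T : Sylow p Q, (T : Subgroup Q) ≤ M := fun T => by
    obtain ⟨g, rfl⟩ := MulAction.exists_smul_eq Q R T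
    rintro _ ⟨w, hw, rfl⟩
    exact hMn.conj_mem w (hRM hw) g
  symm
  refine Nat.card_congr (Equiv.ofBijective (fun T => T.subtype (hall T)) ⟨fun T T' h => ?_, fun U => ?_⟩)
  · refine Sylow.ext (Subgroup.ext fun x => ⟨fun hx => ?_, fun hx => ?_⟩)
    · have h1 : (⟨x, hall T hx⟩ : M) ∈ ((T.subtype (hall T) : Sylow p M) : Subgroup M) := by
        simpa [Sylow.coe_subtype, Subgroup.mem_subgroupOf] using hx
      simp only at h
      rw [h] at h1
      simpa [Sylow.coe_subtype, Subgroup.mem_subgroupOf] using h1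
    · have h1 : (⟨x, hall T' hx⟩ : M) ∈ ((T'.subtype (hall T') : Sylow p M) : Subgroup M) := by
        simpa [Sylow.coe_subtype, Subgroup.mem_subgroupOf] using hx
      simp only at h
      rw [← h] at h1
      simpa [Sylow.coe_subtype, Subgroup.mem_subgroupOf] using h1
  · obtain ⟨T, hT⟩ := (U.isPGroup'.map M.subtype).exists_le_sylow
    refine ⟨T, Sylow.ext (U.is_maximal' (T.subtype (hall T)).isPGroup' fun x hx => ?_)⟩
    have : (x : Q) ∈ (T : Subgroup Q) := hT ⟨x, hx, rfl⟩
    simpa [Sylow.coe_subtype, Subgroup.mem_subgroupOf] using this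

/-- `C(R) = R` in a perfect group with simple socle. -/
theorem centralizer_of_perfect {Q : Type*} [Group Q] [Finite Q] {p : ℕ} [hp : Fact p.Prime]
    (hcore : Cfsg.pPrimeCore p Q = ⊥) (hperf : commutator Q = ⊤) (R : Sylow p Q)
    (hR : Nat.card ↥(R : Subgroup Q) = p) {r : ℕ} (hr : Nat.card (Sylow p Q) = 1 + r * p)
    [NonF p r] (hr0 : 0 < r) (M : Subgroup Q) [hMn : M.Normal] [hMs : IsSimpleGroup M]
    (hMnc : ¬ IsMulCommutative M) (hRM : (R : Subgroup Q) ≤ M) :
    Subgroup.centralizer ((R : Subgroup Q) : Set Q) = (R : Subgroup Q) := by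
  classical
  haveI : Fintype Q := Fintype.ofFinite Q
  set C := Subgroup.centralizer ((R : Subgroup Q) : Set Q) with hCdef
  set N := Subgroup.normalizer ((R : Subgroup Q) : Set Q) with hNdef
  have hle : C ≤ N := Subgroup.centralizer_le_normalizer _
  haveI : IsCyclic ↥(R : Subgroup Q) := isCyclic_of_prime_card hR
  have hRC : (R : Subgroup Q) ≤ C := by
    letI : CommGroup ↥(R : Subgroup Q) := IsCyclic.commGroup
    exact fun x hx => Subgroup.mem_centralizer_iff.2 fun y hy =>
      congrArg Subtype.val (mul_comm (⟨y, hy⟩ : ↥(R : Subgroup Q)) ⟨x, hx⟩)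
  obtain ⟨c, hC⟩ : p ∣ Nat.card C := hR ▸ Subgroup.card_dvd_of_le hRC
  set e := C.relIndex N with he
  have hN : Nat.card N = p * c * e := by
    rw [← hC, he]
    have h := Subgroup.relIndex_mul_relIndex ⊥ _ _ bot_le hle
    rw [Subgroup.relIndex_bot_left, Subgroup.relIndex_bot_left] at h
    exact h.symm
  have hdvd : e ∣ p - 1 := by
    obtain ⟨Se, hSe⟩ := CfsgLib.DefectOne.exists_sect_sylow R hR
    have hG := CfsgLib.DefectOne.exactPrime_of_sylow R hR
    have h := CfsgLib.DefectOne.rowE_trivIrr Se hG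
    have h2 : Se.N = N := by rw [hNdef, ← hSe]
    rw [h2, hSe, ← hCdef, ← he] at h
    rw [h]
    exact CfsgLib.DefectOne.rowE_dvd hG Se _
  have he2 : 2 ≤ e := by
    obtain ⟨m, hm⟩ : p ∣ Nat.card M := hR ▸ Subgroup.card_dvd_of_le hRM
    have hm' : ¬ p ∣ m := fun h => by
      have h1 : p ^ 2 ∣ Nat.card Q := (by rw [hm, pow_two]; exact Nat.mul_dvd_mul_left p h :
        p ^ 2 ∣ Nat.card M).trans (Subgroup.card_subgroup_dvd_card M)
      have h2 := R.pow_dvd_card_of_pow_dvd_card h1
      rw [hR] at h2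
      have := Nat.le_of_dvd hp.out.pos h2
      have := hp.out.two_le
      nlinarith
    obtain ⟨cM, eM, hCM, hNM, heM, -⟩ := sylow_prime_data hMnc hm hm' (R.subtype hRM)
    by_contra hlt
    have he1 : e = 1 := by
      have h0 : e ≠ 0 := fun h => by rw [h, mul_zero] at hN; exact Nat.card_pos.ne' hN
      omega
    have hNC : N ≤ C := Subgroup.relIndex_eq_one.1 he1
    have hsub : Subgroup.normalizer (((R.subtype hRM : Sylow p M) : Subgroup M) : Set M) ≤
        Subgroup.centralizer (((R.subtype hRM : Sylow p M) : Subgroup M) : Set M) := by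
      intro x hx
      have hxN : (x : Q) ∈ N := by
        refine Subgroup.mem_normalizer_iff.2 fun y => ⟨fun hy => ?_, fun hy => ?_⟩
        · have h1 : (⟨y, hRM hy⟩ : M) ∈ ((R.subtype hRM : Sylow p M) : Subgroup M) := by
            simpa [Sylow.coe_subtype, Subgroup.mem_subgroupOf] using hy
          have h2 := (Subgroup.mem_normalizer_iff.1 hx _).1 h1
          simpa [Sylow.coe_subtype, Subgroup.mem_subgroupOf] using h2
        · have hyM : y ∈ M := by
            have := hMn.conj_mem _ (hRM hy) (x : Q)⁻¹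
            simpa [mul_assoc] using this
          have h1 : x * (⟨y, hyM⟩ : M) * x⁻¹ ∈ ((R.subtype hRM : Sylow p M) : Subgroup M) := by
            simpa [Sylow.coe_subtype, Subgroup.mem_subgroupOf] using hy
          have h2 := (Subgroup.mem_normalizer_iff.1 hx _).2 h1
          simpa [Sylow.coe_subtype, Subgroup.mem_subgroupOf] using h2
      refine Subgroup.mem_centralizer_iff.2 fun y hy => Subtype.ext ?_
      have hy' : (y : Q) ∈ (R : Subgroup Q) := by
        simp only [SetLike.mem_coe, Sylow.coe_subtype, Subgroup.mem_subgroupOf] at hy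
        exact hy
      exact Subgroup.mem_centralizer_iff.1 (hNC hxN) _ hy'
    have h3 := Subgroup.card_le_of_le hsub
    rw [hNM, hCM] at h3
    have hpos : 0 < p * cM := hCM ▸ Nat.card_pos
    have := Nat.mul_le_mul_left (p * cM) heM
    omega
  obtain ⟨t, ht⟩ := hdvd
  have hc : c = 1 := by
    refine c_eq_one_of_nonF' R (fun χ h1 => ?_) (fun χ u hu hne g hg => ?_) hR hC hN hr he2 ht hr0
    · obtain ⟨μ, hμ⟩ := CfsgLib.CharTheory.exists_hom_of_degree_one χ.2
        (by rw [(CfsgLib.BrauerCharacters.charDegree_spec χ).1, h1, Nat.cast_one])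
      have hker : μ.ker = ⊤ := top_le_iff.1 (hperf ▸ Abelianization.commutator_subset_ker μ)
      exact Subtype.ext (hμ.trans (funext fun g => by
        rw [μ.mem_ker.1 (hker ▸ Subgroup.mem_top g), CfsgLib.CharTheory.trivIrr_apply, Units.val_one]))
    · obtain ⟨K, hK, hKiff, -⟩ := CfsgLib.CharTheory.exists_kernel
        (CfsgLib.CharTheory.IsIrrCharacter.isCharacter χ.2)
      haveI := hK
      have hKM : K ⊓ M = ⊥ := by
        rcases IsSimpleGroup.eq_bot_or_eq_top_of_normal (K.subgroupOf M) inferInstance with h | h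
        · rw [Subgroup.subgroupOf_eq_bot, disjoint_iff] at h
          exact h
        · exact absurd ((hKiff u).1 (Subgroup.subgroupOf_eq_top.1 h (hRM hu))) hne
      have hpK : ¬ p ∣ Nat.card K := fun h => by
        obtain ⟨x, hx⟩ := exists_prime_orderOf_dvd_card' p h
        obtain ⟨T, hT⟩ := (IsPGroup.of_card (p := p) (n := 1) (G := ↥(Subgroup.zpowers (x : Q)))
          (by rw [Nat.card_zpowers, Subgroup.orderOf_coe, hx, pow_one])).exists_le_sylow
        obtain ⟨g, hg⟩ := MulAction.exists_smul_eq Q R T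
        have hxM : (x : Q) ∈ M := by
          have := hT (Subgroup.mem_zpowers _)
          rw [← hg] at this
          obtain ⟨w, hw, hwx⟩ := this
          rw [← hwx]
          exact hMn.conj_mem w (hRM hw) g
        have h1 : (x : Q) ∈ K ⊓ M := ⟨x.2, hxM⟩
        rw [hKM, Subgroup.mem_bot] at h1
        rw [← Subgroup.orderOf_coe, h1, orderOf_one] at hx
        exact hp.out.ne_one hx.symm
      have hK1 := CfsgLib.Cores.le_pPrimeCore_of_not_dvd hp.out hpK
      rw [hcore, le_bot_iff] at hK1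
      have := (hKiff g).2 hg
      rwa [hK1, Subgroup.mem_bot] at this
  exact (Subgroup.eq_of_le_of_card_ge hRC (by rw [hC, hc, mul_one, hR])).symm

/-- Brauer's theorem for perfect groups. -/
theorem brauer_perfect {G : Type*} [Group G] [Finite G] (hperf : commutator G = ⊤) {p : ℕ}
    [hp : Fact p.Prime] (P : Sylow p G) (hP : Nat.card ↥(P : Subgroup G) = p) {n : ℕ}
    (hn : Nat.card (Sylow p G) = 1 + n * p) [NonF p n] :
    (∃ (F : Type) (_ : Field F) (_ : Fintype F), Fintype.card F = p ∧ 3 < p ∧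
      Nonempty (G ⧸ Cfsg.pPrimeCore p G ≃* Matrix.ProjectiveSpecialLinearGroup (Fin 2) F)) ∨
    (∃ (m : ℕ) (F : Type) (_ : Field F) (_ : Fintype F), Fintype.card F = 2 ^ m ∧ p = 2 ^ m + 1 ∧
      3 < p ∧ Nonempty (G ⧸ Cfsg.pPrimeCore p G ≃* Matrix.ProjectiveSpecialLinearGroup (Fin 2) F)) := by
  classical
  set K := Cfsg.pPrimeCore p G
  haveI hKn : K.Normal := inferInstance
  have hK := CfsgLib.Cores.not_dvd_card_pPrimeCore (G := G) (p := p)
  have hcore : Cfsg.pPrimeCore p (G ⧸ K) = ⊥ := CfsgLib.Cores.pPrimeCore_quotient_pPrimeCore p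
  have hperfQ : commutator (G ⧸ K) = ⊤ := by
    rw [← top_le_iff, ← Subgroup.map_top_of_surjective _ (QuotientGroup.mk'_surjective K), ← hperf,
      commutator_def, Subgroup.map_commutator, Subgroup.map_top_of_surjective _ (QuotientGroup.mk'_surjective K)]
    rfl
  set π := QuotientGroup.mk' K
  obtain ⟨R, hle⟩ := (P.isPGroup'.map π).exists_le_sylow
  have hcardP : Nat.card ↥((P : Subgroup G).map π) = p := by
    refine (Nat.card_congr (Equiv.ofBijective (fun x : ↥(P : Subgroup G) =>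
      (⟨π x, ⟨x, x.2, rfl⟩⟩ : ↥((P : Subgroup G).map π))) ⟨fun x y h => ?_, ?_⟩)).symm.trans hP
    · have h1 : π x = π y := congrArg Subtype.val h
      have h2 : (x : G)⁻¹ * y ∈ K ⊓ (P : Subgroup G) :=
        ⟨QuotientGroup.eq.1 h1, (P : Subgroup G).mul_mem ((P : Subgroup G).inv_mem x.2) y.2⟩
      rw [Subgroup.inf_eq_bot_of_coprime ((hp.out.coprime_iff_not_dvd.2 hK).symm.coprime_dvd_right
        (dvd_of_eq hP)), Subgroup.mem_bot, inv_mul_eq_one] at h2
      exact Subtype.ext h2
    · rintro ⟨_, ⟨x, hx, rfl⟩⟩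
      exact ⟨⟨x, hx⟩, rfl⟩
  have hR : Nat.card ↥(R : Subgroup (G ⧸ K)) = p := by
    obtain ⟨k, hk⟩ := R.isPGroup'.exists_card_eq
    have h1 : p ∣ Nat.card ↥(R : Subgroup (G ⧸ K)) := hcardP.symm.dvd.trans (Subgroup.card_dvd_of_le hle)
    have h2 : ¬ p ^ 2 ∣ Nat.card ↥(R : Subgroup (G ⧸ K)) := fun h => by
      have h3 : p ^ 2 ∣ Nat.card G := by
        rw [Subgroup.card_eq_card_quotient_mul_card_subgroup K]
        exact (h.trans (Subgroup.card_subgroup_dvd_card _)).mul_right _
      have h4 := P.pow_dvd_card_of_pow_dvd_card h3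
      rw [hP] at h4
      have := Nat.le_of_dvd hp.out.pos h4
      have := hp.out.two_le
      nlinarith
    rw [hk] at h1 h2 ⊢
    rcases Nat.lt_or_ge k 2 with h | h
    · interval_cases k
      · exact absurd (Nat.le_of_dvd one_pos (by simpa using h1)) (by have := hp.out.two_le; omega)
      · exact pow_one p
    · exact absurd (pow_dvd_pow p h) h2
  have hRP : (P : Subgroup G).map π = (R : Subgroup (G ⧸ K)) :=
    Subgroup.eq_of_le_of_card_ge hle (by rw [hR, hcardP])
  -- the number of Sylow subgroups of the quotient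
  obtain ⟨r, hr⟩ : ∃ r, Nat.card (Sylow p (G ⧸ K)) = 1 + r * p := by
    refine ⟨Nat.card (Sylow p (G ⧸ K)) / p, ?_⟩
    have h := Nat.div_add_mod (Nat.card (Sylow p (G ⧸ K))) p
    have hmod := card_sylow_modEq_one p (G ⧸ K)
    rw [Nat.ModEq, Nat.mod_eq_of_lt hp.out.one_lt] at hmod
    rw [hmod, mul_comm] at h
    omega
  obtain ⟨w, hw⟩ : (1 + r * p) ∣ (1 + n * p) := by
    rw [← hr, ← hn, R.card_eq_index_normalizer, P.card_eq_index_normalizer,
      ← Subgroup.index_comap_of_surjective _ (QuotientGroup.mk'_surjective K)]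
    refine Subgroup.index_dvd_of_le ?_
    rw [← Subgroup.map_le_iff_le_comap]
    show _ ≤ Subgroup.normalizer ((R : Subgroup (G ⧸ K)) : Set (G ⧸ K))
    rw [← hRP]
    exact Subgroup.le_normalizer_map _
  obtain ⟨M, hMn, hMs, hMnc, hRM⟩ := exists_simple_normal hcore hperfQ R hR
  haveI := hMn
  haveI := hMs
  have hr0 : 0 < r := by
    by_contra h0
    have := one_lt_card_sylow hMnc (p := p) (hR ▸ Subgroup.card_dvd_of_le hRM)
    rw [card_sylow_eq_of_normal M R hRM, hr, show r = 0 by omega, zero_mul] at this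
    omega
  have hw1 : w = 1 := by
    have hwmod : w % p = 1 := by
      have h := congrArg (· % p) hw
      simp only [Nat.add_mul_mod_self_right] at h
      rw [Nat.mul_mod, Nat.add_mul_mod_self_right, Nat.mod_eq_of_lt hp.out.one_lt, one_mul,
        Nat.mod_mod] at h
      exact h.symm
    by_contra hne
    obtain ⟨a, ha⟩ : ∃ a, w = 1 + a * p := ⟨w / p, by
      have := Nat.div_add_mod w p
      rw [hwmod, mul_comm] at this
      omega⟩
    have ha0 : 0 < a := Nat.pos_of_ne_zero fun h => hne (by rw [ha, h, zero_mul, add_zero])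
    refine NonF.out (p := p) (r := n) ((r + 1) * a) r (Nat.mul_pos (by omega) ha0) hr0 ?_
    rw [ha] at hw
    have : n * p = (r + a + r * a * p) * p := by
      have h2 : (1 + r * p) * (1 + a * p) = 1 + (r + a + r * a * p) * p := by ring
      omega
    rw [Nat.eq_of_mul_eq_mul_right hp.out.pos this]
    ring
  have hrn : r = n := by
    rw [hw1, mul_one] at hw
    exact Nat.eq_of_mul_eq_mul_right hp.out.pos (by omega)
  subst hrn
  -- `G / K` is simple
  have hCR := centralizer_of_perfect hcore hperfQ R hR hr hr0 M hMnc hRM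
  have hMtop : M = ⊤ := by
    set NP := Subgroup.normalizer ((R : Subgroup (G ⧸ K)) : Set (G ⧸ K)) with hNP
    have hN : ⁅NP, NP⁆ ≤ (R : Subgroup (G ⧸ K)) := by
      refine Subgroup.commutator_le.2 fun a ha b hb => ?_
      haveI : IsCyclic ↥(R : Subgroup (G ⧸ K)) := isCyclic_of_prime_card hR
      letI : CommGroup ↥(R : Subgroup (G ⧸ K)) := IsCyclic.commGroup
      haveI : Fact (Nat.card ↥(R : Subgroup (G ⧸ K))).Prime := ⟨by rw [hR]; exact hp.out⟩
      let ψ := (IsCyclic.mulAutMulEquiv ↥(R : Subgroup (G ⧸ K))).toMonoidHom.comp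
        (R : Subgroup (G ⧸ K)).normalizerMonoidHom
      have h1 : (⁅(⟨a, ha⟩ : ↥NP), ⟨b, hb⟩⁆ : ↥NP) ∈ (R : Subgroup (G ⧸ K)).normalizerMonoidHom.ker := by
        have h2 : ψ ⁅(⟨a, ha⟩ : ↥NP), ⟨b, hb⟩⁆ = 1 := by
          rw [map_commutatorElement]
          exact commutatorElement_eq_one_iff_mul_comm.2 (mul_comm _ _)
        exact (IsCyclic.mulAutMulEquiv ↥(R : Subgroup (G ⧸ K))).injective (h2.trans (map_one _).symm)
      rw [Subgroup.normalizerMonoidHom_ker, Subgroup.mem_subgroupOf, hCR] at h1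
      exact h1
    have hsup : M ⊔ NP = ⊤ := by
      rw [sup_comm]; exact Sylow.normalizer_sup_eq_top' R hRM
    refine eq_top_iff.2 ?_
    rw [← hperfQ, commutator_def, ← hsup]
    refine Subgroup.commutator_le.2 fun a ha b hb => ?_
    have hq : ∀ x ∈ M ⊔ NP, ∃ y ∈ NP, (QuotientGroup.mk' M) x = QuotientGroup.mk' M y := by
      intro x hx
      have : QuotientGroup.mk' M x ∈ (M ⊔ NP).map (QuotientGroup.mk' M) := ⟨x, hx, rfl⟩
      rw [Subgroup.map_sup, QuotientGroup.map_mk'_self, bot_sup_eq] at this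
      obtain ⟨y, hy, hyx⟩ := this
      exact ⟨y, hy, hyx.symm⟩
    obtain ⟨a', ha', haa⟩ := hq a ha
    obtain ⟨b', hb', hbb⟩ := hq b hb
    rw [← QuotientGroup.eq_one_iff]
    show QuotientGroup.mk' M ⁅a, b⁆ = 1
    rw [map_commutatorElement, haa, hbb, ← map_commutatorElement]
    exact (QuotientGroup.eq_one_iff _).2 (hRM (hN (Subgroup.commutator_mem_commutator ha' hb')))
  let e : G ⧸ K ≃* M := (Subgroup.topEquiv.symm).trans (MulEquiv.subgroupCongr hMtop.symm)
  have hMR : Nat.card ↥((R.subtype hRM : Sylow p M) : Subgroup M) = p := by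
    rw [Sylow.coe_subtype, Nat.card_congr (Subgroup.subgroupOfEquivOfLe hRM).toEquiv, hR]
  rcases brauer_trichotomy hMnc (R.subtype hRM) hMR (r := r)
      (by rw [card_sylow_eq_of_normal M R hRM, hr]) with
    ⟨F, iF, jF, hF, h3, ⟨i⟩⟩ | ⟨m, F, iF, jF, hF, hp2, h3, ⟨i⟩⟩
  · exact Or.inl ⟨F, iF, jF, hF, h3, ⟨e.trans i⟩⟩
  · exact Or.inr ⟨m, F, iF, jF, hF, hp2, h3, ⟨e.trans i⟩⟩

end CfsgLib.SmallGroups.BrauerReynolds
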