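import Cfsg.Agent.Lib.SmallGroups.BrauerReynoldsExceptional
import Cfsg.Agent.Lib.SmallGroups.BrauerReynoldsTwo
import Cfsg.Agent.Lib.CharTheory.PermChar
import Mathlib.GroupTheory.PGroup

/-!
# Transitive groups of prime degree with Sylow normaliser of order `2 p`

With `e = 2` the permutation character is `1 + χ`, the exceptional characters have degree `p - 2`
and agree with the permutation character minus `2` on elements of order prime to `p`. The exterior
square of one of them is the sum of all but one of them, so no non-identity element fixes three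
points.
-/

set_option autoImplicit false
set_option linter.unusedSectionVars false

namespace CfsgLib.SmallGroups.BrauerReynolds

open Cfsg CfsgLib.CharTheory CfsgLib.Blocks CfsgLib.BrauerCharacters
  CfsgLib.BrauerCharacters.AbelianPrincipal Finset MulAction
open scoped ComplexConjugate IsMulCommutative Classical

universe u v

variable {G : Type u} [Group G] [Fintype G] [IsSimpleGroup G] [Fintype (IrrCharacter G)]
  {p : ℕ} [hp : Fact p.Prime]
variable {P : Sylow p G} [IsMulCommutative P] {r t : ℕ} (S : Setup P 2 1 r t)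
variable {M : Ideal AlgInt} [M.IsPrime] (hM : IsPModular p M) (D : Data M P 2)
variable {E : Subgroup G} [IsMulCommutative ↥E] (F : Frame P E 2)
variable (α : Type v) [MulAction G α] [Finite α]

omit [IsSimpleGroup G] [Fintype (IrrCharacter G)] [IsMulCommutative P] in
/-- An element of order `p` of a faithful action on `p` points fixes nothing. -/
theorem card_fixedBy_prime [FaithfulSMul G α] (hα : Nat.card α = p) {y : G} (hy : orderOf y = p) :
    Nat.card (fixedBy α y) = 0 := by
  have hcard : Nat.card (Subgroup.zpowers y) = p ^ 1 := by rw [Nat.card_zpowers, hy, pow_one]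
  have h := (IsPGroup.of_card hcard).card_modEq_card_fixedPoints α
  have hset : fixedPoints (Subgroup.zpowers y) α = fixedBy α y := by
    ext x
    refine ⟨fun hx => hx ⟨y, Subgroup.mem_zpowers y⟩, fun hx g => ?_⟩
    have hle : Subgroup.zpowers y ≤ stabilizer G x := Subgroup.zpowers_le.2 hx
    exact hle g.2
  rw [hset, hα] at h
  have hle : Nat.card (fixedBy α y) ≤ p := hα ▸ Nat.card_le_card_of_injective _ Subtype.val_injective
  rcases hle.eq_or_lt with h' | h'
  · exfalso
    refine hp.out.ne_one (hy ▸ orderOf_eq_one_iff.2 (eq_of_smul_eq_smul (α := α) fun x => ?_))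
    rw [one_smul]
    obtain ⟨⟨x', hx'⟩, rfl⟩ := (Nat.bijective_iff_injective_and_card _).2
      ⟨(Subtype.val_injective : Function.Injective (Subtype.val : fixedBy α y → α)), by rw [h', hα]⟩ |>.2 x
    exact hx'
  · rw [Nat.ModEq, Nat.mod_self, Nat.mod_eq_of_lt h'] at h
    exact h.symm

omit [IsSimpleGroup G] [Fintype (IrrCharacter G)] [IsMulCommutative P] in
theorem fixedBy_subset_pow (g : G) (k : ℕ) : fixedBy α g ⊆ fixedBy α (g ^ k) := by
  intro x hx
  show g ^ k • x = x
  induction k with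
  | zero => rw [pow_zero, one_smul]
  | succ k ih => rw [pow_succ', mul_smul, ih]; exact hx

include S

variable [FaithfulSMul G α] [IsPretransitive G α]

include hM F in
/-- The principal block and the permutation character. -/
theorem Setup.prime_degree_block (hα : Nat.card α = p) (ht : 3 ≤ t) :
    ∃ χ, χ ≠ trivIrr G ∧ D.X = {trivIrr G, χ} ∧ D.v χ = -1 ∧ charDegree (χ : G → ℂ) + 1 = p ∧
      (∀ g, (Nat.card (fixedBy α g) : ℂ) = 1 + (χ : G → ℂ) g) ∧ D.d = 0 ∧ D.s = 1 ∧
      ∀ η ∈ D.Y, charDegree (η : G → ℂ) + 2 = p ∧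
        multP η (1 : ↥(P : Subgroup G) →* ℂˣ) = 1 := by
  obtain ⟨hv, hQ, -⟩ := S.exc hM D F
  have hd : D.d = 0 := by
    by_contra h
    have h2 : (t : ℤ) * D.d + 2 * D.s = 0 :=
      (mul_eq_zero.1 (show D.d * ((t : ℤ) * D.d + 2 * D.s) = 0 by linear_combination hQ)).resolve_left h
    have ht' : (3 : ℤ) ≤ t := by exact_mod_cast ht
    rcases D.hs with hs | hs <;> rw [hs] at h2 <;> rcases lt_or_gt_of_ne h with hd | hd <;> nlinarith
  have hnorm := S.norm_eq D
  rw [hd, sum_congr (rfl : D.X = _) (g := fun _ => (1 : ℤ)) fun χ hχ => by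
    rcases hv χ hχ with h | h <;> rw [h] <;> norm_num, sum_const, nsmul_one] at hnorm
  have hcX : D.X.card = 2 := by push_cast at hnorm; omega
  obtain ⟨χ, hχ⟩ : ∃ χ, D.X.erase (trivIrr G) = {χ} := card_eq_one.1 (by
    rw [card_erase_of_mem (D.trivIrr_mem_X S.hyp), hcX])
  have hχX : χ ∈ D.X ∧ χ ≠ trivIrr G := by
    have := (mem_singleton_self χ : χ ∈ ({χ} : Finset _))
    rw [← hχ, mem_erase] at this
    exact ⟨this.2, this.1⟩
  have hXeq : D.X = {trivIrr G, χ} := by
    rw [← insert_erase (D.trivIrr_mem_X S.hyp), hχ]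
  -- the constituents of the permutation character
  set π : G → ℂ := fun g => (Nat.card (fixedBy α g) : ℂ) with hπ
  obtain ⟨m, hm⟩ := IsCharacter.exists_sum (isCharacter_card_fixedBy (G := G) α)
  have hmt : m (trivIrr G) = 1 := by
    have h := classInner_sum_irr (fun φ => (m φ : ℂ)) (trivIrr G)
    rw [← hm] at h
    have h1 := classInner_card_fixedBy_one (G := G) α
    rw [show (fun _ : G => (1 : ℂ)) = ((trivIrr G : IrrCharacter G) : G → ℂ) from rfl, h] at h1
    haveI : Nonempty α := Finite.card_pos_iff.1 (hα ▸ hp.out.pos)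
    have horb : Nat.card (orbitRel.Quotient G α) = 1 := by
      obtain ⟨x⟩ := (inferInstance : Nonempty α)
      rw [Nat.card_eq_one_iff_exists]
      refine ⟨Quotient.mk'' x, fun q => ?_⟩
      induction q using Quotient.inductionOn' with
      | _ z => exact Quotient.eq''.2 (orbitRel_apply.2 (exists_smul_eq G x z))
    rw [horb] at h1
    exact_mod_cast h1
  have hπ1 : π 1 = p := by
    show (Nat.card (fixedBy α (1 : G)) : ℂ) = p
    rw [show fixedBy α (1 : G) = Set.univ from Set.eq_univ_of_forall fun x => by simp,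
      Nat.card_univ, hα]
  have hpe : ∀ ψ g, ((fun φ : IrrCharacter G => (m φ : ℂ) • (φ : G → ℂ)) ψ) g = (m ψ : ℂ) * (ψ : G → ℂ) g :=
    fun ψ g => rfl
  have happly : ∀ g, π g = ∑ ψ, (m ψ : ℂ) * (ψ : G → ℂ) g := fun g => by
    have := congrFun hm g
    simp only [Finset.sum_apply, Pi.smul_apply, smul_eq_mul] at this
    exact this
  have hdeg : ∑ ψ, m ψ * charDegree (ψ : G → ℂ) = p := by
    have h := happly 1
    rw [hπ1] at h
    simp only [(charDegree_spec _).1] at h
    exact_mod_cast h.symm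
  have hL : ∑ ψ, m ψ * multP ψ (1 : ↥(P : Subgroup G) →* ℂˣ) = 1 := by
    have hP : ∑ w : ↥(P : Subgroup G), π w = p := by
      rw [sum_eq_single (1 : ↥(P : Subgroup G)) (fun w _ hw => ?_) (by simp), Subgroup.coe_one, hπ1]
      show (Nat.card (fixedBy α (w : G)) : ℂ) = 0
      rw [card_fixedBy_prime α hα (S.orderOf_eq w.2 fun h => hw (Subtype.ext h)), Nat.cast_zero]
    simp only [happly] at hP
    rw [sum_comm] at hP
    apply Nat.cast_injective (R := ℂ)
    push_cast
    simp only [coe_multP, MonoidHom.one_apply, Units.val_one, mul_one, S.cardP]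
    have hp0 : (p : ℂ) ≠ 0 := Nat.cast_ne_zero.2 hp.out.ne_zero
    rw [← mul_right_inj' hp0, mul_one, mul_sum]
    nth_rw 3 [← hP]
    refine sum_congr rfl fun ψ _ => ?_
    rw [← mul_sum]
    field_simp
  have hLt : multP (trivIrr G) (1 : ↥(P : Subgroup G) →* ℂˣ) = 1 := by
    apply Nat.cast_injective (R := ℂ)
    rw [coe_multP]
    simp only [trivIrr_apply, MonoidHom.one_apply, Units.val_one, mul_one, sum_const, card_univ,
      nsmul_eq_mul, ← Nat.card_eq_fintype_card, Nat.cast_one]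
    exact inv_mul_cancel₀ (Nat.cast_ne_zero.2 Nat.card_pos.ne')
  have hzero : ∀ ψ, ψ ≠ trivIrr G → m ψ = 0 ∨ multP ψ (1 : ↥(P : Subgroup G) →* ℂˣ) = 0 := by
    intro ψ hψ
    rw [← add_sum_erase _ _ (mem_univ (trivIrr G)), hmt, hLt, mul_one, add_eq_left] at hL
    exact Nat.mul_eq_zero.1 (sum_eq_zero_iff.1 hL ψ (mem_erase.2 ⟨hψ, mem_univ _⟩))
  have hY : ∀ η ∈ D.Y, (charDegree (η : G → ℂ) : ℤ) =
      (p : ℤ) * multP η (1 : ↥(P : Subgroup G) →* ℂˣ) - 2 * D.s := fun η hη => by
    obtain ⟨ψ, hψ, rfl⟩ := D.mem_Y.1 hη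
    rw [S.degree_ζ D hψ, hd]
    push_cast
    ring
  have heq : ∀ η ∈ D.Y, ∀ g : G, ¬ p ∣ orderOf g →
      (D.s : ℂ) * (η : G → ℂ) g + (1 + (D.v χ : ℂ) * (χ : G → ℂ) g) = 0 := fun η hη g hg => by
    have h := D.sum_X_mul hM hη hg
    rw [hd, hXeq, sum_pair (Ne.symm hχX.2), D.v_trivIrr S.hyp, trivIrr_apply] at h
    simpa using h
  have hdegeq : ∀ η ∈ D.Y, D.s * (charDegree (η : G → ℂ) : ℤ) + (1 + D.v χ * charDegree (χ : G → ℂ)) = 0 :=
    fun η hη => by
      have h := heq η hη 1 (by rw [orderOf_one]; exact hp.out.not_dvd_one)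
      rw [(charDegree_spec η).1, (charDegree_spec χ).1] at h
      exact_mod_cast h
  have hmout : ∀ ψ, ψ ∉ D.X → ψ ∉ D.Y → m ψ = 0 := by
    intro ψ hX hYn
    have hne : ψ ≠ trivIrr G := fun h => hX (h ▸ D.trivIrr_mem_X S.hyp)
    refine (hzero ψ hne).resolve_right fun h0 => ?_
    have hout : ψ ∈ outSet M G := mem_compl.2 fun hb => hYn (by
      by_contra hYn'
      exact hX (mem_sdiff.2 ⟨hb, hYn'⟩))
    have h := coe_multP (P := P) ψ (1 : ↥(P : Subgroup G) →* ℂˣ)
    rw [h0, Nat.cast_zero, sum_eq_single (1 : ↥(P : Subgroup G)) (fun w _ hw => by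
      rw [S.outside_vanish hM D F hout w.2 fun e => hw (Subtype.ext e), zero_mul]) (by simp),
      Subgroup.coe_one, inv_one, MonoidHom.one_apply, Units.val_one, mul_one, (charDegree_spec ψ).1] at h
    rcases mul_eq_zero.1 h.symm with h' | h'
    · exact inv_ne_zero (Nat.cast_ne_zero.2 Nat.card_pos.ne') h'
    · exact (charDegree_spec ψ).2.1.ne' (by exact_mod_cast h')
  obtain ⟨b, hb, hbL, hbd⟩ := S.exists_b hM D hχX.1 hχX.2
  obtain ⟨η₀, hη₀⟩ : D.Y.Nonempty := card_pos.1 (by rw [S.card_Y D]; omega)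
  have hmain : D.v χ = -1 ∧ b = 1 ∧ m χ = 1 := by
    by_cases hmχ : m χ = 0
    · exfalso
      obtain ⟨η, hη, hmη⟩ : ∃ η ∈ D.Y, m η ≠ 0 := by
        by_contra hno
        push Not at hno
        rw [← add_sum_erase _ _ (mem_univ (trivIrr G)), hmt, sum_eq_zero fun ψ hψ => by
          have : m ψ = 0 := by
            by_cases hX : ψ ∈ D.X
            · rw [hXeq, mem_insert, mem_singleton] at hX
              rw [hX.resolve_left (ne_of_mem_erase hψ), hmχ]
            · by_cases hYm : ψ ∈ D.Y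
              · exact hno ψ hYm
              · exact hmout ψ hX hYm
          rw [this, zero_mul], one_mul, charDegree_triv] at hdeg
        exact hp.out.ne_one hdeg.symm
      have hηt : η ≠ trivIrr G := fun h => by
        have := D.trivIrr_mem_X S.hyp
        rw [← h] at this
        exact (mem_sdiff.1 this).2 hη
      have h1 := hY η hη
      rw [(hzero η hηt).resolve_left hmη] at h1
      have h2 := hdegeq η hη
      rw [h1] at h2
      have hd1 : (1 : ℤ) ≤ charDegree (η : G → ℂ) := by exact_mod_cast (charDegree_spec η).2.1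
      push_cast at h1
      have hs : D.s = -1 := D.hs.resolve_left fun h => by rw [h] at h1; linarith
      rw [hs] at h2
      push_cast at h2
      have h3 : D.v χ * (charDegree (χ : G → ℂ) : ℤ) = 1 := by linarith
      have hd' : (1 : ℤ) ≤ charDegree (χ : G → ℂ) := by exact_mod_cast (charDegree_spec χ).2.1
      rcases hv χ hχX.1 with h | h <;> rw [h] at h3
      · obtain ⟨y, hy, hy1⟩ := S.exists_mem_ne
        refine hy1 (eq_one_of_apply_eq hχX.2 ?_)
        have h4 : charDegree (χ : G → ℂ) = 1 := by omega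
        rw [S.apply_P hM D hχX.1 hy hy1, (charDegree_spec χ).1, h4, h]
        simp
      · linarith
    · have hL0 := (hzero χ hχX.2).resolve_left hmχ
      rw [hL0, Nat.cast_zero] at hbL
      have hv' : D.v χ = -1 := (hv χ hχX.1).resolve_left fun h => by rw [h] at hbL; omega
      refine ⟨hv', by omega, ?_⟩
      rw [hv', show (b : ℤ) = 1 by omega, one_mul] at hbd
      rw [← add_sum_erase _ _ (mem_univ (trivIrr G)), hmt, charDegree_triv, one_mul,
        ← add_sum_erase _ _ (mem_erase.2 ⟨hχX.2, mem_univ χ⟩)] at hdeg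
      by_contra hne
      have h5 : 2 * charDegree (χ : G → ℂ) ≤ m χ * charDegree (χ : G → ℂ) :=
        Nat.mul_le_mul_right _ (by omega)
      have := S.p5
      omega
  obtain ⟨hvχ, hb1, hmχ⟩ := hmain
  rw [hvχ, hb1, Nat.cast_one, one_mul] at hbd
  have hdχ : charDegree (χ : G → ℂ) + 1 = p := by omega
  have hp5 := S.p5
  have hs : D.s = 1 := D.hs.resolve_right fun h => by
    have h2 := hdegeq η₀ hη₀
    rw [h, hvχ] at h2
    omega
  refine ⟨χ, hχX.2, hXeq, hvχ, hdχ, fun g => ?_, hd, hs, fun η hη => ?_⟩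
  · have hrest : ∀ ψ ∈ (univ.erase (trivIrr G)).erase χ, m ψ = 0 := by
      rw [← add_sum_erase _ _ (mem_univ (trivIrr G)), hmt, charDegree_triv, one_mul,
        ← add_sum_erase _ _ (mem_erase.2 ⟨hχX.2, mem_univ χ⟩), hmχ, one_mul, ← add_assoc,
        show 1 + charDegree (χ : G → ℂ) = p by omega, add_eq_left] at hdeg
      exact fun ψ hψ => (Nat.mul_eq_zero.1 (sum_eq_zero_iff.1 hdeg ψ hψ)).resolve_right
        (charDegree_spec ψ).2.1.ne'
    show π g = _
    rw [happly g, ← add_sum_erase _ _ (mem_univ (trivIrr G)),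
      ← add_sum_erase _ _ (mem_erase.2 ⟨hχX.2, mem_univ χ⟩), hmt, hmχ, trivIrr_apply,
      sum_eq_zero fun ψ hψ => by rw [hrest ψ hψ, Nat.cast_zero, zero_mul]]
    simp
  · have h2 := hdegeq η hη
    have h1 := hY η hη
    rw [hs, hvχ, one_mul] at h2
    rw [hs] at h1
    have hd2 : charDegree (η : G → ℂ) + 2 = p := by omega
    refine ⟨hd2, ?_⟩
    have : (p : ℤ) * multP η (1 : ↥(P : Subgroup G) →* ℂˣ) = p * 1 := by omega
    exact_mod_cast mul_left_cancel₀ (Int.natCast_ne_zero.2 hp.out.ne_zero) this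

include hM D F in
/-- On an element of order prime to `p`, the fixed points of the square. -/
theorem Setup.fixedBy_sq (hα : Nat.card α = p) (ht : 3 ≤ t) {g : G} (hg : ¬ p ∣ orderOf g) :
    ((Nat.card (fixedBy α g) : ℂ) - 2) ^ 2 - ((Nat.card (fixedBy α (g * g)) : ℂ) - 2) =
      2 * ((t : ℂ) - 1) * ((Nat.card (fixedBy α g) : ℂ) - 2) := by
  obtain ⟨χ, hχ1, hX, hv, hdχ, hπ, hd, hs, hY⟩ := S.prime_degree_block hM D F α hα ht
  obtain ⟨ψ₀, hψ₀⟩ : ∃ ψ : ↥(P : Subgroup G) →* ℂˣ, ψ ≠ 1 := by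
    obtain ⟨i, -, -⟩ := S.hyp.exists_not_sameOrbit; exact ⟨i.1, i.2⟩
  have hηY : D.ζ ψ₀ ∈ D.Y := D.mem_Y.2 ⟨ψ₀, hψ₀, rfl⟩
  have heta : ∀ x : G, ¬ p ∣ orderOf x → (D.ζ ψ₀ : G → ℂ) x = (Nat.card (fixedBy α x) : ℂ) - 2 := by
    intro x hx
    have h := D.sum_X_mul hM hηY hx
    rw [hd, hs, hX, sum_pair (Ne.symm hχ1), D.v_trivIrr S.hyp, hv, trivIrr_apply] at h
    rw [hπ x]
    push_cast at h
    linear_combination h
  have hgg : ¬ p ∣ orderOf (g * g) := fun h => hg (h.trans (by rw [← sq]; exact orderOf_pow_dvd 2))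
  have h := S.sq_eq hM D F hχ1 hX hv hdχ hd hs hY hηY hg
  rw [heta g hg, heta _ hgg] at h
  exact h

omit [IsMulCommutative P] in
theorem card_fixedBy_of_dvd (hα : Nat.card α = p) {g : G} (hg : p ∣ orderOf g) :
    Nat.card (fixedBy α g) = 0 := by
  have h1 : orderOf (g ^ (orderOf g / p)) = p :=
    orderOf_pow_orderOf_div (orderOf_pos g).ne' hg
  have h2 := Nat.card_mono (Set.toFinite _) (fixedBy_subset_pow α g (orderOf g / p))
  rw [card_fixedBy_prime α hα h1] at h2
  omega

include hM D F in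
/-- No element other than `1` fixes three points. -/
theorem Setup.eq_one_of_three_le_card_fixedBy (hα : Nat.card α = p) (ht : 3 ≤ t) {g : G}
    (h3 : 3 ≤ Nat.card (fixedBy α g)) : g = 1 := by
  by_cases hg : p ∣ orderOf g
  · rw [card_fixedBy_of_dvd S α hα hg] at h3; omega
  have h := S.fixedBy_sq hM D F α hα ht hg
  have hmono : Nat.card (fixedBy α g) ≤ Nat.card (fixedBy α (g * g)) := by
    rw [← sq]; exact Nat.card_mono (Set.toFinite _) (fixedBy_subset_pow α g 2)
  have hle : Nat.card (fixedBy α g) ≤ p :=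
    hα ▸ Nat.card_le_card_of_injective _ Subtype.val_injective
  set a := Nat.card (fixedBy α g)
  set b := Nat.card (fixedBy α (g * g))
  have hZ : ((a : ℤ) - 2) ^ 2 - ((b : ℤ) - 2) = 2 * ((t : ℤ) - 1) * ((a : ℤ) - 2) := by exact_mod_cast h
  have hpt : (p : ℤ) = 2 * t + 1 := by exact_mod_cast S.p_eq
  have hap : a = p := by
    by_contra hne
    have ha : (a : ℤ) + 1 ≤ p := by exact_mod_cast (by omega : a + 1 ≤ p)
    have ha3 : (3 : ℤ) ≤ a := by exact_mod_cast h3
    have hab : (a : ℤ) ≤ b := by exact_mod_cast hmono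
    nlinarith
  refine eq_of_smul_eq_smul (α := α) fun x => ?_
  rw [one_smul]
  obtain ⟨⟨x', hx'⟩, rfl⟩ := (Nat.bijective_iff_injective_and_card _).2
    ⟨(Subtype.val_injective : Function.Injective (Subtype.val : fixedBy α g → α)), hap.trans hα.symm⟩ |>.2 x
  exact hx'

end CfsgLib.SmallGroups.BrauerReynolds
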