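import Cfsg.Agent.Lib.SmallGroups.BrauerReynoldsTwoBound
import Cfsg.Agent.Lib.CharTheory.PermChar

/-!
# Transitive groups of degree `2 p` that are not doubly transitive, Sylow normaliser of order `2 p`
-/

set_option autoImplicit false
set_option linter.unusedSectionVars false

namespace CfsgLib.SmallGroups.BrauerReynolds

open Cfsg CfsgLib.CharTheory CfsgLib.Blocks CfsgLib.BrauerCharacters
  CfsgLib.BrauerCharacters.AbelianPrincipal Finset MulAction
open scoped ComplexConjugate IsMulCommutative Classical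

universe u v

variable {G : Type u} [Group G] [Fintype G] [IsSimpleGroup G] [Fintype (IrrCharacter G)]
  {p : ℕ} [hp : Fact p.Prime]
variable {P : Sylow p G} [IsMulCommutative P] {r t : ℕ} (S : Setup P 2 1 r t)
variable {M : Ideal AlgInt} [M.IsPrime] (hM : IsPModular p M) (D : Data M P 2)
variable {E : Subgroup G} [IsMulCommutative ↥E] (F : Frame P E 2)
variable (α : Type v) [MulAction G α] [Finite α] [IsPretransitive G α]

include S

include hM D F in
/-- A character of degree `p - 2` exists. -/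
theorem Setup.exists_deg_sub_two (hα : Nat.card α = 2 * p)
    (hn2 : ¬ IsMultiplyPretransitive G α 2) :
    ∃ θ : IrrCharacter G, charDegree (θ : G → ℂ) + 2 = p := by
  obtain ⟨D, hd⟩ := S.exists_data_zero hM D F
  obtain ⟨hv, -, -⟩ := S.exc hM D F
  have hp5 := S.p5
  have hnorm := S.norm_eq D
  rw [hd, sum_congr (rfl : D.X = _) (g := fun _ => (1 : ℤ)) fun χ hχ => by
    rcases hv χ hχ with h | h <;> rw [h] <;> norm_num, sum_const, nsmul_one] at hnorm
  have hcX : D.X.card = 2 := by push_cast at hnorm; omega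
  obtain ⟨χ, hχ⟩ : ∃ χ, D.X.erase (trivIrr G) = {χ} := card_eq_one.1 (by
    rw [card_erase_of_mem (D.trivIrr_mem_X S.hyp), hcX])
  have hχX : χ ∈ D.X ∧ χ ≠ trivIrr G := by
    have := (mem_singleton_self χ : χ ∈ ({χ} : Finset _))
    rw [← hχ, mem_erase] at this
    exact ⟨this.2, this.1⟩
  have hXeq : D.X = {trivIrr G, χ} := by
    rw [← insert_erase (D.trivIrr_mem_X S.hyp), hχ]
  set π : G → ℂ := fun g => (Nat.card (fixedBy α g) : ℂ) with hπ
  obtain ⟨m, hm⟩ := IsCharacter.exists_sum (isCharacter_card_fixedBy (G := G) α)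
  have happly : ∀ g, π g = ∑ ψ, (m ψ : ℂ) * (ψ : G → ℂ) g := fun g => by
    have := congrFun hm g
    simp only [Finset.sum_apply, Pi.smul_apply, smul_eq_mul] at this
    exact this
  have hmt : m (trivIrr G) = 1 := by
    have h := classInner_sum_irr (fun φ => (m φ : ℂ)) (trivIrr G)
    rw [← hm] at h
    have h1 := classInner_card_fixedBy_one (G := G) α
    rw [show (fun _ : G => (1 : ℂ)) = ((trivIrr G : IrrCharacter G) : G → ℂ) from rfl, h] at h1
    have horb : Nat.card (orbitRel.Quotient G α) = 1 := by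
      obtain ⟨x⟩ : Nonempty α := Finite.card_pos_iff.1 (by omega)
      rw [Nat.card_eq_one_iff_exists]
      refine ⟨Quotient.mk'' x, fun q => ?_⟩
      induction q using Quotient.inductionOn' with
      | _ z => exact Quotient.eq''.2 (orbitRel_apply.2 (exists_smul_eq G x z))
    rw [horb] at h1
    exact_mod_cast h1
  have hπ1 : π 1 = 2 * p := by
    show (Nat.card (fixedBy α (1 : G)) : ℂ) = 2 * p
    rw [show fixedBy α (1 : G) = Set.univ from Set.eq_univ_of_forall fun x => by simp,
      Nat.card_univ, hα]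
    push_cast; rfl
  have hfree : ∀ y ∈ (P : Subgroup G), y ≠ 1 → π y = 0 := by
    intro y hy hy1
    show (Nat.card (fixedBy α y) : ℂ) = 0
    rw [Nat.cast_eq_zero, Nat.card_eq_zero]
    refine Or.inl ⟨fun ⟨x, hx⟩ => ?_⟩
    have h1 : p ∣ Nat.card (stabilizer G x) := by
      have h := Subgroup.orderOf_dvd_natCard (stabilizer G x) (show y ∈ stabilizer G x from hx)
      rwa [S.orderOf_eq hy hy1] at h
    have h2 : p * p ∣ Nat.card G := by
      rw [← Subgroup.index_mul_card (stabilizer G x), index_stabilizer_of_transitive, hα]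
      exact Nat.mul_dvd_mul (dvd_mul_left p 2) h1
    rw [← (P : Subgroup G).card_mul_index, S.cardP] at h2
    exact P.not_dvd_index (Nat.dvd_of_mul_dvd_mul_left hp.out.pos h2)
  have hL : ∑ ψ, m ψ * multP ψ (1 : ↥(P : Subgroup G) →* ℂˣ) = 2 := by
    have hP : ∑ w : ↥(P : Subgroup G), π w = 2 * p := by
      rw [sum_eq_single (1 : ↥(P : Subgroup G))
        (fun w _ hw => hfree _ w.2 fun h => hw (Subtype.ext h)) (by simp), Subgroup.coe_one, hπ1]
    simp only [happly] at hP
    rw [sum_comm] at hP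
    apply Nat.cast_injective (R := ℂ)
    push_cast
    simp only [coe_multP, MonoidHom.one_apply, Units.val_one, mul_one, S.cardP]
    have hp0 : (p : ℂ) ≠ 0 := Nat.cast_ne_zero.2 hp.out.ne_zero
    have hrw : ∀ ψ : IrrCharacter G, (m ψ : ℂ) * ((p : ℂ)⁻¹ * ∑ w : ↥(P : Subgroup G), (ψ : G → ℂ) w) =
        (p : ℂ)⁻¹ * ∑ w : ↥(P : Subgroup G), (m ψ : ℂ) * (ψ : G → ℂ) w := fun ψ => by
      rw [← mul_sum]; ring
    rw [sum_congr rfl fun ψ _ => hrw ψ, ← mul_sum, hP]
    field_simp
  have hLt : multP (trivIrr G) (1 : ↥(P : Subgroup G) →* ℂˣ) = 1 := by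
    apply Nat.cast_injective (R := ℂ)
    rw [coe_multP]
    simp only [trivIrr_apply, MonoidHom.one_apply, Units.val_one, mul_one, sum_const, card_univ,
      nsmul_eq_mul, ← Nat.card_eq_fintype_card, Nat.cast_one]
    exact inv_mul_cancel₀ (Nat.cast_ne_zero.2 Nat.card_pos.ne')
  have hY : ∀ η ∈ D.Y, (charDegree (η : G → ℂ) : ℤ) =
      (p : ℤ) * multP η (1 : ↥(P : Subgroup G) →* ℂˣ) - 2 * D.s := fun η hη => by
    obtain ⟨ψ, hψ, rfl⟩ := D.mem_Y.1 hη
    rw [S.degree_ζ D hψ, hd]
    push_cast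
    ring
  have hdegeq : ∀ η ∈ D.Y,
      D.s * (charDegree (η : G → ℂ) : ℤ) + (1 + D.v χ * charDegree (χ : G → ℂ)) = 0 :=
    fun η hη => by
      have h := D.sum_X_mul hM hη (g := 1) (by rw [orderOf_one]; exact hp.out.not_dvd_one)
      rw [hd, hXeq, sum_pair (Ne.symm hχX.2), D.v_trivIrr S.hyp, trivIrr_apply,
        (charDegree_spec η).1, (charDegree_spec χ).1] at h
      apply Int.cast_injective (α := ℂ)
      push_cast at h ⊢
      linear_combination h
  -- only `χ` may have no fixed vector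
  have hL0 : ∀ ψ, multP ψ (1 : ↥(P : Subgroup G) →* ℂˣ) = 0 → ψ = χ := by
    intro ψ h0
    by_cases hX : ψ ∈ D.X
    · rw [hXeq, mem_insert, mem_singleton] at hX
      rcases hX with h | h
      · rw [h, hLt] at h0; omega
      · exact h
    exfalso
    by_cases hYm : ψ ∈ D.Y
    · have h1 := hY ψ hYm
      rw [h0] at h1
      have h2 := hdegeq ψ hYm
      rw [h1] at h2
      have hd1 : (1 : ℤ) ≤ charDegree (ψ : G → ℂ) := by exact_mod_cast (charDegree_spec ψ).2.1
      push_cast at h1
      have hs : D.s = -1 := D.hs.resolve_left fun h => by rw [h] at h1; linarith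
      rw [hs] at h2
      push_cast at h2
      have h3 : D.v χ * (charDegree (χ : G → ℂ) : ℤ) = 1 := by linarith
      have hd' : (1 : ℤ) ≤ charDegree (χ : G → ℂ) := by exact_mod_cast (charDegree_spec χ).2.1
      rcases hv χ hχX.1 with h | h <;> rw [h] at h3
      · obtain ⟨y, hy, hy1⟩ := S.exists_mem_ne
        refine hy1 (eq_one_of_apply_eq hχX.2 ?_)
        have h4 : charDegree (χ : G → ℂ) = 1 := by omega
        rw [S.apply_P hM D hχX.1 hy hy1, (charDegree_spec χ).1, h4, h]
        simp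
      · linarith
    · have hout : ψ ∈ outSet M G := mem_compl.2 fun hb => hX (mem_sdiff.2 ⟨hb, hYm⟩)
      have h := coe_multP (P := P) ψ (1 : ↥(P : Subgroup G) →* ℂˣ)
      rw [h0, Nat.cast_zero, sum_eq_single (1 : ↥(P : Subgroup G)) (fun w _ hw => by
        rw [S.outside_vanish hM D F hout w.2 fun e => hw (Subtype.ext e), zero_mul]) (by simp),
        Subgroup.coe_one, inv_one, MonoidHom.one_apply, Units.val_one, mul_one,
        (charDegree_spec ψ).1] at h
      rcases mul_eq_zero.1 h.symm with h' | h'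
      · exact inv_ne_zero (Nat.cast_ne_zero.2 Nat.card_pos.ne') h'
      · exact (charDegree_spec ψ).2.1.ne' (by exact_mod_cast h')
  -- `χ` has no fixed vector, as `π - 1` is reducible
  have hLχ : multP χ (1 : ↥(P : Subgroup G) →* ℂˣ) = 0 := by
    by_contra hne
    rw [← add_sum_erase _ _ (mem_univ (trivIrr G)), hmt, hLt, mul_one] at hL
    have hsum : ∑ ψ ∈ univ.erase (trivIrr G), m ψ * multP ψ (1 : ↥(P : Subgroup G) →* ℂˣ) = 1 := by
      omega
    obtain ⟨φ, hφ, hφne⟩ := exists_ne_zero_of_sum_ne_zero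
      (show ∑ ψ ∈ univ.erase (trivIrr G), m ψ * multP ψ (1 : ↥(P : Subgroup G) →* ℂˣ) ≠ 0 by omega)
    rw [← add_sum_erase _ _ hφ] at hsum
    have hmul : m φ * multP φ (1 : ↥(P : Subgroup G) →* ℂˣ) = 1 := by omega
    have hrest : ∑ ψ ∈ (univ.erase (trivIrr G)).erase φ,
        m ψ * multP ψ (1 : ↥(P : Subgroup G) →* ℂˣ) = 0 := by omega
    have hm0 : ∀ ψ ∈ (univ.erase (trivIrr G)).erase φ, m ψ = 0 := fun ψ hψ =>
      (Nat.mul_eq_zero.1 (sum_eq_zero_iff.1 hrest ψ hψ)).resolve_right fun h =>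
        hne ((hL0 ψ h) ▸ h)
    refine hn2 ((isIrrCharacter_card_fixedBy_sub_one_iff α (by omega)).1 ?_)
    have : (fun g => π g - 1) = (φ : G → ℂ) := funext fun g => by
      rw [happly g, ← add_sum_erase _ _ (mem_univ (trivIrr G)), ← add_sum_erase _ _ hφ,
        hmt, Nat.eq_one_of_mul_eq_one_right hmul, trivIrr_apply,
        sum_eq_zero fun ψ hψ => by rw [hm0 ψ hψ, Nat.cast_zero, zero_mul]]
      simp
    exact this ▸ φ.2
  obtain ⟨b, hb, hbL, hbd⟩ := S.exists_b hM D hχX.1 hχX.2
  rw [hLχ, Nat.cast_zero] at hbL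
  have hv' : D.v χ = -1 := (hv χ hχX.1).resolve_left fun h => by rw [h] at hbL; omega
  rw [hv', show (b : ℤ) = 1 by omega, one_mul] at hbd
  obtain ⟨η, hη⟩ : D.Y.Nonempty := card_pos.1 (by rw [S.card_Y D]; have := S.t2; omega)
  refine ⟨η, ?_⟩
  have h := hdegeq η hη
  rw [hv'] at h
  rcases D.hs with hs | hs <;> rw [hs] at h <;> omega

include hM D F in
/-- Elements of even order are involutions when `p > 5`. -/
theorem Setup.orderOf_eq_two {θ : IrrCharacter G} (hθ : charDegree (θ : G → ℂ) + 2 = p)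
    (ht : 3 ≤ t) {x : G} (hx : ¬ p ∣ orderOf x) (h2 : 2 ∣ orderOf x) : orderOf x = 2 := by
  obtain ⟨hdeg, hsq, hpow, hodd, hinv, hfour, -⟩ := S.values_two hM D F hθ
  obtain ⟨k, hk⟩ := h2
  by_contra hne
  have hp5 := S.p5
  have hord0 := orderOf_pos x
  have hk2 : 2 ≤ k := by omega
  by_cases h4 : 2 ∣ k
  · obtain ⟨l, rfl⟩ := h4
    have := (hfour (x ^ l) (by
      rw [orderOf_pow' x (by omega), hk, show 2 * (2 * l) = 4 * l by ring,
        Nat.gcd_eq_right (dvd_mul_left l 4), Nat.mul_div_cancel _ (by omega)])).1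
    omega
  obtain ⟨q, hq, hqk⟩ := Nat.exists_prime_and_dvd (show k ≠ 1 by omega)
  obtain ⟨l, rfl⟩ := hqk
  have hq2 : q ≠ 2 := fun h => h4 (h ▸ dvd_mul_right q l)
  have hq3 : 3 ≤ q := by have := hq.two_le; omega
  set g := x ^ l with hg
  have hl0 : l ≠ 0 := fun h => by rw [h, mul_zero] at hk2; omega
  have hgord : orderOf g = 2 * q := by
    rw [hg, orderOf_pow' x hl0, hk, ← mul_assoc, Nat.gcd_eq_right (dvd_mul_left l _),
      Nat.mul_div_cancel _ (by omega)]
  have hgreg : ¬ p ∣ orderOf g := fun h => hx (h.trans (orderOf_pow_dvd l))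
  have hg2 : orderOf (g ^ 2) = q := by
    rw [orderOf_pow' g (by omega), hgord, Nat.gcd_eq_right (dvd_mul_right 2 q),
      Nat.mul_div_cancel_left _ two_pos]
  have hv2 : (θ : G → ℂ) (g ^ 2) = 0 :=
    hodd _ (fun h => by rw [h, orderOf_one] at hg2; omega)
      (fun h => hgreg (h.trans (orderOf_pow_dvd 2))) (fun h => by
        rw [hg2] at h; exact hq2 ((Nat.prime_dvd_prime_iff_eq Nat.prime_two hq).1 h).symm)
  have hu : orderOf (g ^ q) = 2 := by
    rw [orderOf_pow' g hq.ne_zero, hgord, Nat.gcd_eq_right (dvd_mul_left q 2),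
      Nat.mul_div_cancel _ hq.pos]
  set f := (θ : G → ℂ) g with hf
  have hcases : f = 0 ∨ f = 2 * (t : ℂ) - 2 := by
    have h := hsq g hgreg
    rw [← sq g, hv2] at h
    rcases mul_eq_zero.1 (show f * (f - (2 * (t : ℂ) - 2)) = 0 by linear_combination h) with h0 | h0
    · exact Or.inl h0
    · exact Or.inr (sub_eq_zero.1 h0)
  -- the sum over the subgroup generated by `g`
  have hterm : ∀ i ∈ (range (2 * q)).erase 0, (θ : G → ℂ) (g ^ i) =
      if i = q then -1 else if 2 ∣ i then 0 else f := by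
    intro i hi
    obtain ⟨hi0, hiq⟩ := mem_erase.1 hi
    rw [mem_range] at hiq
    split_ifs with h1 h2
    · rw [h1, hinv _ hu]
    · obtain ⟨j, rfl⟩ := h2
      have hj : j.Coprime (orderOf (g ^ 2)) := by
        rw [hg2]
        exact (hq.coprime_iff_not_dvd.2 fun h => by
          have := Nat.le_of_dvd (by omega) h
          omega).symm
      rw [pow_mul, hpow _ (fun h => hgreg (h.trans (orderOf_pow_dvd 2))) j hj, hv2]
    · refine hpow g hgreg i ?_
      rw [hgord]
      refine Nat.Coprime.mul_right ((Nat.prime_two.coprime_iff_not_dvd.2 h2).symm)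
        ((hq.coprime_iff_not_dvd.2 fun h => ?_).symm)
      obtain ⟨c, rfl⟩ := h
      rcases (show c = 0 ∨ c = 1 ∨ 2 ≤ c by omega) with rfl | rfl | hc
      · exact hi0 (mul_zero q)
      · exact h1 (mul_one q)
      · have := Nat.mul_le_mul_left q hc; omega
  set H := Subgroup.zpowers g with hH
  have hzsum : ∀ f : G → ℂ, ∑ w : ↥H, f w = ∑ i ∈ range (2 * q), f (g ^ i) := by
    intro f
    rw [← hgord, ← Fin.sum_univ_eq_sum_range (fun i => f (g ^ i))]
    exact (Fintype.sum_equiv (finEquivZPowers (isOfFinOrder_of_finite g)) _ _ fun i => rfl).symm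
  obtain ⟨m, hm⟩ := exists_sum_eq_card_mul (IsIrrCharacter.isCharacter θ.2) H
  rw [hzsum (θ : G → ℂ), Nat.card_zpowers, hgord, ← add_sum_erase _ _ (mem_range.2 (by omega : 0 < 2 * q)),
    pow_zero, hdeg, sum_congr rfl hterm] at hm
  set A := ((range (2 * q)).erase 0).filter fun i => ¬ 2 ∣ i ∧ i ≠ q with hA
  have hsumA : ∑ i ∈ (range (2 * q)).erase 0, (if i = q then (-1 : ℂ) else if 2 ∣ i then 0 else f) =
      -1 + A.card * f := by
    rw [sum_congr rfl (g := fun i => (if i = q then (-1 : ℂ) else 0) +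
      if ¬ 2 ∣ i ∧ i ≠ q then f else 0) fun i _ => by
        by_cases h1 : i = q
        · simp [h1]
        · by_cases h2 : 2 ∣ i <;> simp [h1, h2],
      sum_add_distrib, sum_ite_eq', if_pos (mem_erase.2 ⟨hq.ne_zero, mem_range.2 (by omega)⟩),
      ← sum_filter, sum_const, nsmul_eq_mul]
  rw [hsumA] at hm
  have hAcard : A.card + 1 = q := by
    have hins : insert q A = ((range (2 * q)).filter fun i => ¬ 2 ∣ i) := by
      ext i
      simp only [hA, mem_insert, mem_filter, mem_erase, mem_range]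
      constructor
      · rintro (rfl | ⟨⟨-, h1⟩, h2, -⟩)
        · exact ⟨by omega, fun h => hq2 ((Nat.prime_dvd_prime_iff_eq Nat.prime_two hq).1 h).symm⟩
        · exact ⟨h1, h2⟩
      · rintro ⟨h1, h2⟩
        by_cases h : i = q
        · exact Or.inl h
        · exact Or.inr ⟨⟨fun h0 => h2 (h0 ▸ dvd_zero 2), h1⟩, h2, h⟩
    have hc := congrArg card hins
    rw [card_insert_of_notMem (by simp [hA])] at hc
    rw [hc]
    have himg : (range (2 * q)).filter (fun i => ¬ 2 ∣ i) = (range q).image fun i => 2 * i + 1 := by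
      ext i
      simp only [mem_filter, mem_range, mem_image]
      constructor
      · rintro ⟨h1, h2⟩
        exact ⟨i / 2, by omega, by omega⟩
      · rintro ⟨a, ha, rfl⟩
        exact ⟨by omega, by omega⟩
    rw [himg, card_image_of_injective _ (fun a b h => by simpa using h), card_range]
  have hpt : (p : ℂ) = 2 * t + 1 := by exact_mod_cast S.p_eq
  have hAC : (A.card : ℂ) = (q : ℂ) - 1 := by rw [eq_sub_iff_add_eq]; exact_mod_cast hAcard
  rw [hAC, hpt] at hm
  have hval0 : ∀ w ∈ (univ : Finset ↥(Subgroup.zpowers (g ^ 2))).erase 1, (θ : G → ℂ) w = 0 := by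
    intro w hw
    have hw1 : (w : G) ≠ 1 := fun h => ne_of_mem_erase hw (Subtype.ext h)
    have hwd : orderOf (w : G) ∣ q := by
      have h := Subgroup.orderOf_dvd_natCard _ w.2
      rwa [Nat.card_zpowers, hg2] at h
    have hwo : orderOf (w : G) = q :=
      ((Nat.dvd_prime hq).1 hwd).resolve_left fun h => hw1 (orderOf_eq_one_iff.1 h)
    refine hodd _ hw1 (fun h => ?_) fun h => hq2 ?_
    · rw [hwo] at h
      exact hgreg (h.trans (hgord ▸ dvd_mul_left q 2))
    · rw [hwo] at h
      exact ((Nat.prime_dvd_prime_iff_eq Nat.prime_two hq).1 h).symm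
  rcases hcases with h0 | h0
  · rw [h0] at hm
    have hZ : (t : ℤ) - 1 = q * m := by
      apply Int.cast_injective (α := ℂ)
      push_cast at hm ⊢
      linear_combination (1 / 2 : ℂ) * hm
    -- the subgroup generated by `g ^ 2`
    obtain ⟨m', hm'⟩ := exists_sum_eq_card_mul (IsIrrCharacter.isCharacter θ.2) (Subgroup.zpowers (g ^ 2))
    rw [← add_sum_erase _ _ (mem_univ (1 : ↥(Subgroup.zpowers (g ^ 2)))), sum_eq_zero fun w hw => ?_,
      add_zero, Subgroup.coe_one, hdeg, Nat.card_zpowers, hg2, hpt] at hm'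
    · have hZ' : 2 * (t : ℤ) - 1 = q * m' := by
        apply Int.cast_injective (α := ℂ)
        push_cast at hm' ⊢
        linear_combination hm'
      have h1 : (q : ℤ) ∣ 1 := ⟨(m' : ℤ) - 2 * m, by linear_combination hZ' - 2 * hZ⟩
      have := Int.le_of_dvd one_pos h1
      omega
    · exact hval0 w hw
  · -- the multiplicity of the sign character is negative
    rw [h0] at hm
    set H' := Subgroup.zpowers (g ^ 2)
    have hZ : (t : ℤ) - 1 + (q - 1) * ((t : ℤ) - 1) = q * m := by
      apply Int.cast_injective (α := ℂ)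
      push_cast at hm ⊢
      linear_combination (1 / 2 : ℂ) * hm
    obtain ⟨m', hm'⟩ := exists_sum_eq_card_mul (IsIrrCharacter.isCharacter θ.2) H'
    rw [← add_sum_erase _ _ (mem_univ (1 : ↥H')), sum_eq_zero fun w hw => ?_,
      add_zero, Subgroup.coe_one, hdeg, Nat.card_zpowers, hg2, hpt] at hm'
    · have hm2 : (q : ℤ) * m' * 2 - 2 * q * m = 2 * (2 * (t : ℤ) - 1) - 2 * q * ((t : ℤ) - 1) := by
        have hZ' : 2 * (t : ℤ) - 1 = q * m' := by
          apply Int.cast_injective (α := ℂ)
          push_cast at hm' ⊢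
          linear_combination hm'
        linear_combination -2 * hZ' + 2 * hZ
      -- `θ` restricted to the larger subgroup has fewer invariants than to the smaller
      have hle : m ≤ m' := by
        obtain ⟨n, ρ, hρ, hc⟩ := θ.2
        have hinv : ∀ K : Subgroup G, ∀ k : ℕ, ∑ w : ↥K, (θ : G → ℂ) w = (Nat.card ↥K : ℂ) * k →
            Module.finrank ℂ (Representation.invariants (ρ.comp K.subtype : Representation ℂ ↥K (Fin n → ℂ))) = k := by
          intro K k hk
          set σ : Representation ℂ ↥K (Fin n → ℂ) := ρ.comp K.subtype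
          haveI : Invertible (Fintype.card ↥K : ℂ) := invertibleOfNonzero (Nat.cast_ne_zero.2 Fintype.card_ne_zero)
          have h1 := classInner_character_one σ
          rw [classInner] at h1
          simp only [map_one, mul_one] at h1
          rw [show ∑ w : ↥K, σ.character w = ∑ w : ↥K, (θ : G → ℂ) w from
            sum_congr rfl fun w _ => by rw [← hc]; rfl, hk, ← mul_assoc,
            inv_mul_cancel₀ (Nat.cast_ne_zero.2 Nat.card_pos.ne'), one_mul] at h1
          exact_mod_cast h1.symm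
        obtain ⟨mH, hmH⟩ := exists_sum_eq_card_mul (IsIrrCharacter.isCharacter θ.2) H
        obtain ⟨mH', hmH'⟩ := exists_sum_eq_card_mul (IsIrrCharacter.isCharacter θ.2) H'
        have e1 : mH = m := by
          have := hmH
          rw [hzsum (θ : G → ℂ), Nat.card_zpowers, hgord,
            ← add_sum_erase _ _ (mem_range.2 (by omega : 0 < 2 * q)), pow_zero, hdeg,
            sum_congr rfl hterm, hsumA, hAC, hpt, h0, hm] at this
          exact_mod_cast (mul_left_cancel₀ (Nat.cast_ne_zero.2 (by omega : 2 * q ≠ 0)) this).symm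
        have e2 : mH' = m' := by
          have := hmH'
          rw [← add_sum_erase _ _ (mem_univ (1 : ↥H')), sum_eq_zero fun w hw => ?_,
            add_zero, Subgroup.coe_one, hdeg, Nat.card_zpowers, hg2, hpt, hm'] at this
          · exact_mod_cast (mul_left_cancel₀ (Nat.cast_ne_zero.2 hq.ne_zero) this).symm
          · exact hval0 w hw
        rw [← e1, ← e2, ← hinv H mH hmH, ← hinv H' mH' hmH']
        refine Submodule.finrank_mono fun v hv w => ?_
        exact hv ⟨(w : G), (Subgroup.zpowers_le.2 (pow_mem (Subgroup.mem_zpowers g) 2)) w.2⟩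
      have hle' : (q : ℤ) * m ≤ q * m' := mul_le_mul_of_nonneg_left (by exact_mod_cast hle) (by positivity)
      have hbig : 3 * ((t : ℤ) - 1) ≤ (q : ℤ) * ((t : ℤ) - 1) :=
        mul_le_mul_of_nonneg_right (by exact_mod_cast hq3) (by omega)
      nlinarith
    · exact hval0 w hw

end CfsgLib.SmallGroups.BrauerReynolds
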