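import Cfsg.Agent.Lib.SmallGroups.Order175560Search
import Cfsg.Agent.Lib.SmallGroups.CentralizerCount
import Cfsg.Agent.Lib.SmallGroups.FixedSets
import Cfsg.Agent.Lib.SmallGroups.SylowTwentyOne

/-!
In a group of order properly dividing `175560` the Sylow 19-subgroup is normal, and a group of
order `175560` is simple or has a normal Sylow 19-subgroup.
-/

set_option autoImplicit false

universe u

namespace CfsgLib.SmallGroups.Order175560

open Subgroup MulAction

theorem sq_not_dvd {d r : ℕ} (hd : d ∣ 175560) (hr : r.Prime) (hr2 : r ≠ 2) (hrd : r ∣ d) :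
    ¬ r ∣ d / r := by
  intro h
  have h2 : r * r ∣ 175560 := (Nat.mul_dvd_of_dvd_div hrd h).trans hd
  have hmem := mem_divList h2
  have hall : ∀ x ∈ divList, x = 1 ∨ x = 4 ∨ ∀ t ∈ List.range 420, t * t ≠ x := by decide +kernel
  have hle : r * r ≤ 175560 := Nat.le_of_dvd (by norm_num) h2
  have hr420 : r < 420 := by nlinarith
  have := hr.two_le
  rcases hall _ hmem with h1 | h1 | h1
  · nlinarith
  · exact hr2 (by nlinarith)
  · exact h1 r (List.mem_range.mpr hr420) rfl

section Simple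

variable {G : Type u} [Group G] [Finite G] [IsSimpleGroup G]

/-- The Sylow data of a prime dividing `|G|` once. -/
structure Datum (G : Type u) [Group G] (r : ℕ) (n c e : ℕ) : Prop where
  num : Nat.card (Sylow r G) = n
  sylow : ∀ P : Sylow r G, Nat.card ↥(P : Subgroup G) = r
  cent : ∀ P : Sylow r G, Nat.card ↥(centralizer ((P : Subgroup G) : Set G)) = r * c
  norm : ∃ P : Sylow r G, Nat.card ↥(normalizer ((P : Subgroup G) : Set G)) = r * c * e
  one_lt : 1 < n
  mod_eq : n % r = 1
  e_gt : 1 < e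
  e_dvd : e ∣ r - 1
  prod : n * (c * e) = Nat.card G / r
  not_dvd : ¬ r ∣ c

theorem exists_datum (hG : ¬ IsMulCommutative G) (hd : Nat.card G ∣ 175560) {r : ℕ} (hr : r.Prime)
    (hr2 : r ≠ 2) (hrd : r ∣ Nat.card G) : ∃ n c e, Datum G r n c e := by
  have : Fact r.Prime := ⟨hr⟩
  have hm := sq_not_dvd hd hr hr2 hrd
  have hn : Nat.card G = r * (Nat.card G / r) := (Nat.mul_div_cancel' hrd).symm
  obtain ⟨P⟩ := (inferInstance : Nonempty (Sylow r G))
  obtain ⟨c, e, hC, hN, he, hed, hprod⟩ := sylow_prime_data hG hn hm P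
  have hS : ∀ Q : Sylow r G, Nat.card ↥(Q : Subgroup G) = r := fun Q => by
    simpa using card_sylow_eq (a := 1) (by simpa using hn) hm Q
  refine ⟨_, c, e, rfl, hS, fun Q => (TwentyOne.card_centralizer_sylow_eq Q P).trans hC, ⟨P, hN⟩,
    one_lt_card_sylow hG hrd, ?_, he, hed, hprod, fun h => hm ?_⟩
  · exact (Finset.mem_filter.mp (card_sylow_mem (a := 1) (by simpa using hn) hm)).2
  · rw [← hprod]; exact dvd_mul_of_dvd_right (dvd_mul_of_dvd_left h e) _

omit [IsSimpleGroup G] in
/-- If `s ∣ c_r` then `r ∣ c_s`. -/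
theorem link {r s n c e n' c' e' : ℕ} (hr : r.Prime) (hs : s.Prime) (hrs : r ≠ s)
    (h : Datum G r n c e) (h' : Datum G s n' c' e') (hsc : s ∣ c) : r ∣ c' := by
  have : Fact r.Prime := ⟨hr⟩
  have : Fact s.Prime := ⟨hs⟩
  obtain ⟨P, -⟩ := h.norm
  obtain ⟨x, hx⟩ := exists_prime_orderOf_dvd_card' (G := ↥(centralizer ((P : Subgroup G) : Set G))) s
    (by rw [h.cent P]; exact hsc.mul_left r)
  have hcard : Nat.card ↥(zpowers (x : G)) = s := by
    rw [Nat.card_zpowers, Subgroup.orderOf_coe, hx]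
  obtain ⟨Q, hQ⟩ :=
    (IsPGroup.of_card (n := 1) (by rw [hcard, pow_one]) : IsPGroup s ↥(zpowers (x : G))).exists_le_sylow
  have hQe : zpowers (x : G) = (Q : Subgroup G) := eq_of_le_of_card_ge hQ (by rw [h'.sylow, hcard])
  have hle : (P : Subgroup G) ≤ centralizer ((Q : Subgroup G) : Set G) := by
    intro y hy
    rw [← hQe, mem_centralizer_iff]
    intro z hz
    obtain ⟨k, rfl⟩ := mem_zpowers_iff.mp hz
    exact (mem_centralizer_iff.mp (zpow_mem x.2 k) y hy).symm
  have hdvd := Subgroup.card_dvd_of_le hle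
  rw [h.sylow, h'.cent] at hdvd
  exact (hr.dvd_mul.mp hdvd).resolve_left fun hh =>
    hrs ((Nat.prime_dvd_prime_iff_eq hr hs).mp hh)

omit [IsSimpleGroup G] in
theorem not_both {r s n c e : ℕ} (hr : r.Prime) (hs : s.Prime) (hrs : r ≠ s)
    (h : Datum G r n c e) (hsc : ¬ s ∣ c) (g : G) (hgr : r ∣ orderOf g) : ¬ s ∣ orderOf g := by
  intro hgs
  have : Fact r.Prime := ⟨hr⟩
  have hy := orderOf_pow_div hgr
  obtain ⟨P, hP⟩ :=
    (IsPGroup.of_card (n := 1) (by rw [Nat.card_zpowers, hy, pow_one]) :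
      IsPGroup r ↥(zpowers (g ^ (orderOf g / r)))).exists_le_sylow
  have hPe : zpowers (g ^ (orderOf g / r)) = (P : Subgroup G) :=
    eq_of_le_of_card_ge hP (by rw [h.sylow, Nat.card_zpowers, hy])
  have hgC : g ∈ centralizer ((P : Subgroup G) : Set G) := by
    rw [← hPe, mem_centralizer_iff]
    intro z hz
    obtain ⟨i, rfl⟩ := mem_zpowers_iff.mp hz
    exact (((Commute.self_pow g _).zpow_right i).eq).symm
  have hdvd : s ∣ Nat.card ↥(centralizer ((P : Subgroup G) : Set G)) :=
    hgs.trans (Subgroup.orderOf_dvd_natCard _ hgC)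
  rw [h.cent] at hdvd
  rcases hs.dvd_mul.mp hdvd with hh | hh
  · exact hrs ((Nat.prime_dvd_prime_iff_eq hs hr).mp hh).symm
  · exact hsc hh

/-- The restrictions on the Sylow 19-subgroups. -/
theorem special_holds (hG : ¬ IsMulCommutative G) {r n c e : ℕ} (hr : r.Prime)
    (hrd : r ∣ Nat.card G) (h : Datum G r n c e) : special r n c e = true := by
  unfold special
  split_ifs with h19 h20 h77
  all_goals try rfl
  all_goals subst h19
  all_goals have : Fact (Nat.Prime 19) := ⟨hr⟩
  all_goals obtain ⟨P, hN⟩ := h.norm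
  all_goals obtain ⟨g₀, hg₀⟩ := exists_smul_sylow_ne hG hrd P
  -- a prime-order element of the centraliser fixes `1 (mod 19)` of the Sylow subgroups, not all
  all_goals
    have hfix : ∀ q : ℕ, q.Prime → q ∣ c → ∃ f, f < n ∧ f % 19 = 1 ∧ n % q = f % q := by
      intro q hq hqc
      have : Fact q.Prime := ⟨hq⟩
      obtain ⟨u, hu⟩ := exists_prime_orderOf_dvd_card'
        (G := ↥(centralizer ((P : Subgroup G) : Set G))) q (by rw [h.cent P]; exact hqc.mul_left 19)
      have hu' : orderOf (u : G) = q := (Subgroup.orderOf_coe _).trans hu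
      refine ⟨Nat.card (fixedBy (Sylow 19 G) (u : G)), ?_, ?_, ?_⟩
      · rw [← h.num]
        refine card_fixedBy_lt hg₀ fun h1 => ?_
        rw [h1, orderOf_one] at hu'
        exact hq.one_lt.ne hu'
      · exact card_fixedBy_sylow_modEq_one P u.2
      · rw [← h.num]
        exact card_modEq_card_fixedBy
          (IsPGroup.of_card (n := 1) (by rw [Nat.card_zpowers, hu', pow_one]))
  · -- `n = 20`
    subst h20
    have hc : c = 1 := by
      by_contra hne
      obtain ⟨q, hq, hqc⟩ := Nat.exists_prime_and_dvd hne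
      obtain ⟨f, hf, hf1, hfq⟩ := hfix q hq hqc
      have : f = 1 := by omega
      subst this
      have hq19 : q ∣ 19 := (Nat.modEq_iff_dvd' (by norm_num : 1 ≤ 20)).mp hfq.symm
      exact h.not_dvd ((Nat.prime_dvd_prime_iff_eq hq hr).mp hq19 ▸ hqc)
    subst hc
    simp only [beq_self_eq_true, Bool.true_and, beq_iff_eq]
    by_contra hodd
    have : Fact (Nat.Prime 2) := ⟨Nat.prime_two⟩
    have h2e : 2 ∣ e := Nat.dvd_of_mod_eq_zero (by omega)
    obtain ⟨x, hx⟩ := exists_prime_orderOf_dvd_card'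
      (G := ↥(normalizer ((P : Subgroup G) : Set G))) 2 (by rw [hN]; exact h2e.mul_left _)
    have hx' : orderOf (x : G) = 2 := (Subgroup.orderOf_coe _).trans hx
    have hxC : (x : G) ∉ centralizer ((P : Subgroup G) : Set G) := fun hm => by
      have := Subgroup.orderOf_dvd_natCard _ hm
      rw [hx', h.cent P] at this
      norm_num at this
    have hα : Nat.card (G ⧸ normalizer ((P : Subgroup G) : Set G)) = 20 := by
      rw [← index_eq_card]
      exact P.card_eq_index_normalizer.symm.trans h.num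
    have hle := card_fixedBy_le_card_orbits (α := G ⧸ normalizer ((P : Subgroup G) : Set G))
      (P : Subgroup G) (h.sylow P) x.2 hxC
    have horb := card_orbits_sylow_cosets P (h.sylow P)
    rw [h.num] at horb
    have hpos : 0 < Nat.card (fixedBy (G ⧸ normalizer ((P : Subgroup G) : Set G)) (x : G)) :=
      have : Nonempty (fixedBy (G ⧸ normalizer ((P : Subgroup G) : Set G)) (x : G)) :=
        ⟨⟨((1 : G) : G ⧸ normalizer ((P : Subgroup G) : Set G)), by
          rw [mk_mem_fixedBy_iff]; simp⟩⟩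
      Nat.card_pos
    have h4 := four_dvd_moved hG (α := G ⧸ normalizer ((P : Subgroup G) : Set G))
      (g := (x : G)) (hx' ▸ pow_orderOf_eq_one (x : G))
    rw [hα] at h4
    have hk2 : Nat.card (orbitRel.Quotient ↥(P : Subgroup G)
        (G ⧸ normalizer ((P : Subgroup G) : Set G))) = 2 := by
      omega
    set k := Nat.card (fixedBy (G ⧸ normalizer ((P : Subgroup G) : Set G)) (x : G)) with hk
    have : k ≤ 2 := hle.trans_eq hk2
    omega
  · -- `n = 77`
    subst h77
    simp only [bne_iff_ne, ne_eq]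
    intro h5
    obtain ⟨f, hf, hf1, hfq⟩ := hfix 5 Nat.prime_five (Nat.dvd_of_mod_eq_zero h5)
    omega

variable (hG : ¬ IsMulCommutative G) (hd : Nat.card G ∣ 175560)
include hG hd

theorem mem_opts {r n c e : ℕ} (hr : r.Prime) (hrd : r ∣ Nat.card G) (h : Datum G r n c e) :
    (r, n, c) ∈ opts (Nat.card G) r := by
  have hn0 : 0 < n := by have := h.one_lt; omega
  have he0 : 0 < e := by have := h.e_gt; omega
  have hd1 : Nat.card G / r / n = c * e := by rw [← h.prod, Nat.mul_div_cancel_left _ hn0]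
  have hnd : n ∣ Nat.card G / r := ⟨_, h.prod.symm⟩
  simp only [opts, List.mem_flatMap, List.mem_map, List.mem_filter, List.mem_range, Bool.and_eq_true,
    decide_eq_true_eq, beq_iff_eq]
  refine ⟨n, ⟨mem_divList ((hnd.trans (Nat.div_dvd_of_dvd hrd)).trans hd),
    ⟨h.one_lt, h.mod_eq⟩, Nat.mod_eq_zero_of_dvd hnd⟩, e,
    ⟨?_, ⟨⟨h.e_gt, Nat.mod_eq_zero_of_dvd h.e_dvd⟩, ?_⟩, ?_⟩, ?_⟩
  · have := hr.two_le
    have := Nat.le_of_dvd (by omega) h.e_dvd
    omega
  · rw [hd1]; exact Nat.mul_mod_left c e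
  · rw [hd1, Nat.mul_div_cancel _ he0]; exact special_holds hG hr hrd h
  · rw [hd1, Nat.mul_div_cancel _ he0]

omit [IsSimpleGroup G] hG hd in
/-- The element count. -/
theorem count {ch : List (ℕ × ℕ × ℕ)} (hnd : (ch.map fun x => x.1).Nodup)
    (hch : ∀ x ∈ ch, x.1.Prime ∧ ∃ e, Datum G x.1 x.2.1 x.2.2 e) {S : List (ℕ × ℕ × ℕ)}
    (hS : ∀ x ∈ S, x ∈ ch) (hu : unlinked S = true) :
    (ch.map (term S)).sum + 1 ≤ Nat.card G := by
  classical
  have := Fintype.ofFinite G
  have hinj : ∀ x ∈ ch, ∀ y ∈ ch, x.1 = y.1 → x = y := fun x hx y hy hxy =>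
    List.inj_on_of_nodup_map hnd hx hy hxy
  let inS : ℕ → Prop := fun r => r ∈ S.map fun y => y.1
  let A : ℕ × ℕ × ℕ → Finset G := fun x => Finset.univ.filter fun g =>
    if inS x.1 then x.1 ∣ orderOf g else orderOf g = x.1
  have hA : ∀ x ∈ ch, (A x).card = term S x := by
    intro x hx
    obtain ⟨hp, e, hD⟩ := hch x hx
    have : Fact x.1.Prime := ⟨hp⟩
    obtain ⟨P, -⟩ := hD.norm
    rw [← Fintype.card_subtype, ← Nat.card_eq_fintype_card]
    by_cases hxS : inS x.1
    · simp only [if_pos hxS]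
      rw [card_dvd_orderOf hD.sylow hD.cent hD.not_dvd, hD.num, term, if_pos]
      exact List.elem_iff.mpr hxS
    · simp only [if_neg hxS]
      rw [card_orderOf_eq_prime P (hD.sylow P), hD.num, term, if_neg]
      exact fun h => hxS (List.elem_iff.mp h)
  have hndc : ch.Nodup := hnd.of_map
  have hdisj : (ch.toFinset : Set (ℕ × ℕ × ℕ)).PairwiseDisjoint A := by
    intro x hx y hy hne
    rw [List.coe_toFinset] at hx hy
    have hne1 : x.1 ≠ y.1 := fun h => hne (hinj x hx y hy h)
    obtain ⟨hp, e, hD⟩ := hch x hx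
    obtain ⟨hq, e', hD'⟩ := hch y hy
    rw [Function.onFun, Finset.disjoint_left]
    intro g hgx hgy
    simp only [A, Finset.mem_filter, Finset.mem_univ, true_and] at hgx hgy
    by_cases hxS : inS x.1 <;> by_cases hyS : inS y.1
    · rw [if_pos hxS] at hgx
      rw [if_pos hyS] at hgy
      obtain ⟨x', hx', hxe⟩ := List.mem_map.mp hxS
      obtain ⟨y', hy', hye⟩ := List.mem_map.mp hyS
      obtain rfl := hinj x' (hS x' hx') x hx hxe
      obtain rfl := hinj y' (hS y' hy') y hy hye
      have h1 := List.all_eq_true.mp (List.all_eq_true.mp hu _ hx') _ hy'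
      simp only [Bool.or_eq_true, beq_iff_eq, bne_iff_ne, ne_eq] at h1
      exact not_both hp hq hne1 hD
        (fun h => (h1.resolve_left hne1) (Nat.mod_eq_zero_of_dvd h)) g hgx hgy
    · rw [if_pos hxS] at hgx
      rw [if_neg hyS] at hgy
      rw [hgy] at hgx
      exact hne1 ((Nat.prime_dvd_prime_iff_eq hp hq).mp hgx)
    · rw [if_neg hxS] at hgx
      rw [if_pos hyS] at hgy
      rw [hgx] at hgy
      exact hne1 ((Nat.prime_dvd_prime_iff_eq hq hp).mp hgy).symm
    · rw [if_neg hxS] at hgx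
      rw [if_neg hyS] at hgy
      exact hne1 (hgx.symm.trans hgy)
  have h1 : (1 : G) ∉ ch.toFinset.biUnion A := by
    simp only [Finset.mem_biUnion, List.mem_toFinset, not_exists, not_and]
    intro x hx hmem
    obtain ⟨hp, -⟩ := hch x hx
    simp only [A, Finset.mem_filter, orderOf_one] at hmem
    have h2 := hmem.2
    split_ifs at h2
    · exact hp.not_dvd_one h2
    · exact hp.ne_one h2.symm
  have hle := Finset.card_le_univ (insert (1 : G) (ch.toFinset.biUnion A))
  rw [Finset.card_insert_of_notMem h1, Finset.card_biUnion hdisj, ← Nat.card_eq_fintype_card,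
    Finset.sum_congr rfl (fun x hx => hA x (List.mem_toFinset.mp hx)),
    List.sum_toFinset _ hndc] at hle
  exact hle

theorem go_eq_true (rs : List ℕ) (ch : List (ℕ × ℕ × ℕ)) (hrs : ∀ r ∈ rs, r.Prime ∧ r ≠ 2)
    (hnd : (ch.map (fun x => x.1) ++ rs).Nodup)
    (hch : ∀ x ∈ ch, x.1.Prime ∧ ∃ e, Datum G x.1 x.2.1 x.2.2 e) :
    go (Nat.card G) rs ch = true := by
  induction rs generalizing ch with
  | nil => rfl
  | cons r rs ih =>
    obtain ⟨hnd1, hnd2, hdis⟩ := List.nodup_append.mp hnd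
    obtain ⟨hrrs, hnd3⟩ := List.nodup_cons.mp hnd2
    obtain ⟨hr, hr2⟩ := hrs r List.mem_cons_self
    have hrs' : ∀ s ∈ rs, s.Prime ∧ s ≠ 2 := fun s hs => hrs s (List.mem_cons_of_mem _ hs)
    rw [go]
    split_ifs with hrd
    · have hrd' : r ∣ Nat.card G := Nat.dvd_of_mod_eq_zero hrd
      obtain ⟨n, c, e, hD⟩ := exists_datum hG hd hr hr2 hrd'
      have hnotin : r ∉ ch.map fun x => x.1 := fun h => hdis r h r List.mem_cons_self rfl
      have hnd' : (((r, n, c) :: ch).map (fun x => x.1) ++ rs).Nodup := by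
        rw [List.map_cons, List.cons_append, List.nodup_cons, List.mem_append]
        refine ⟨fun h => h.elim hnotin hrrs, List.nodup_append.mpr ⟨hnd1, hnd3, ?_⟩⟩
        exact fun a ha b hb => hdis a ha b (List.mem_cons_of_mem _ hb)
      have hch' : ∀ x ∈ (r, n, c) :: ch, x.1.Prime ∧ ∃ e, Datum G x.1 x.2.1 x.2.2 e := by
        intro x hx
        rcases List.mem_cons.mp hx with rfl | hx
        · exact ⟨hr, e, hD⟩
        · exact hch x hx
      rw [List.any_eq_true]
      refine ⟨(r, n, c), mem_opts hG hd hr hrd' hD, ?_⟩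
      rw [Bool.and_eq_true, Bool.and_eq_true]
      refine ⟨⟨?_, ?_⟩, ih _ hrs' hnd' hch'⟩
      · rw [consistent, List.all_eq_true]
        intro y hy
        obtain ⟨hq, e', hD'⟩ := hch y hy
        have hne : r ≠ y.1 := fun h => hnotin (List.mem_map.mpr ⟨y, hy, h.symm⟩)
        rw [beq_iff_eq, Bool.eq_iff_iff, beq_iff_eq, beq_iff_eq, ← Nat.dvd_iff_mod_eq_zero,
          ← Nat.dvd_iff_mod_eq_zero]
        exact ⟨link hr hq hne hD hD', link hq hr hne.symm hD' hD⟩
      · rw [bound, List.all_eq_true]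
        intro S hS
        rw [Bool.or_eq_true, Bool.not_eq_true', decide_eq_true_eq]
        by_cases hu : unlinked S = true
        · exact Or.inr (count (hnd'.sublist (List.sublist_append_left _ _)) hch'
            (fun x hx => (List.mem_sublists.mp hS).subset hx) hu)
        · exact Or.inl (by simpa using hu)
    · exact ih ch hrs' (List.nodup_append.mpr ⟨hnd1, hnd3,
        fun a ha b hb => hdis a ha b (List.mem_cons_of_mem _ hb)⟩) hch

theorem eq_or_false (h19 : 19 ∣ Nat.card G) : Nat.card G = 175560 := by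
  have h := List.all_eq_true.mp search_eq_false _ (mem_divList hd)
  have hgo := go_eq_true hG hd [19, 11, 7, 5, 3] []
    (by intro r hr; simp only [List.mem_cons, List.not_mem_nil, or_false] at hr
        rcases hr with rfl | rfl | rfl | rfl | rfl <;> norm_num)
    (by decide) (by simp)
  rw [hgo] at h
  simp only [Bool.or_eq_true, bne_iff_ne, ne_eq, beq_iff_eq, Bool.and_eq_true, Bool.not_true,
    Bool.false_eq_true, or_false] at h
  rcases h with (h | h) | ⟨h, h'⟩
  · exact absurd (Nat.mod_eq_zero_of_dvd h19) h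
  · exact h
  · exact absurd (Nat.mod_eq_zero_of_dvd (four_dvd_card hG (Nat.dvd_of_mod_eq_zero h))) h'

end Simple

variable {G : Type u} [Group G] [Finite G]

/-- A 19-group normalising a subgroup with fewer than 19 elements centralises it. -/
theorem le_centralizer_of_normalizes {P Q : Subgroup G} (hP : Nat.card P = 19) (hQ : Nat.card Q < 19)
    (h : P ≤ normalizer (Q : Set G)) : Q ≤ centralizer (P : Set G) := by
  intro x hx
  have hd : Nat.card ↥(P ⊓ centralizer ({x} : Set G)) ∣ 19 := hP ▸ Subgroup.card_dvd_of_le inf_le_left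
  rcases (Nat.dvd_prime (by norm_num)).mp hd with h1 | h1
  · exfalso
    have hbot := Subgroup.eq_bot_of_card_eq _ h1
    let f : P → Q := fun g => ⟨g.1 * x * g.1⁻¹, (mem_normalizer_iff.mp (h g.2) x).mp hx⟩
    have hf : Function.Injective f := by
      intro a b hab
      have hab' : (a : G) * x * (a : G)⁻¹ = b * x * (b : G)⁻¹ := congrArg Subtype.val hab
      have hmem : (b : G)⁻¹ * a ∈ P ⊓ centralizer ({x} : Set G) := by
        refine mem_inf.mpr ⟨mul_mem (inv_mem b.2) a.2, ?_⟩
        rw [mem_centralizer_singleton]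
        calc (b : G)⁻¹ * a * x = (b : G)⁻¹ * ((a : G) * x * (a : G)⁻¹) * a := by group
          _ = (b : G)⁻¹ * (b * x * (b : G)⁻¹) * a := by rw [hab']
          _ = x * ((b : G)⁻¹ * a) := by group
      rw [hbot, mem_bot, inv_mul_eq_one] at hmem
      exact Subtype.ext hmem.symm
    have := Nat.card_le_card_of_injective f hf
    omega
  · have heq : P ⊓ centralizer ({x} : Set G) = P :=
      eq_of_le_of_card_ge inf_le_left (by rw [h1, hP])
    rw [mem_centralizer_iff]
    intro y hy
    exact mem_centralizer_singleton.mp ((inf_eq_left.mp heq) hy)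

theorem card_sylow_nineteen (hd : Nat.card G ∣ 175560) (h19 : 19 ∣ Nat.card G) [Fact (Nat.Prime 19)]
    (P : Sylow 19 G) : Nat.card ↥(P : Subgroup G) = 19 := by
  have hm := sq_not_dvd hd (by norm_num) (by norm_num) h19
  simpa using card_sylow_eq (a := 1) (m := Nat.card G / 19)
    (by rw [pow_one, Nat.mul_div_cancel' h19]) hm P

theorem prime_pow_lt {q k : ℕ} (hq : q.Prime) (h : q ^ k ∣ 175560) (h19 : q ≠ 19) : q ^ k < 19 := by
  have hmem := mem_divList h
  have hall : ∀ x ∈ divList, 19 ≤ x → x.minFac ^ (Nat.log x.minFac x) ≠ x ∨ x = 19 := by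
    decide +kernel
  by_contra hlt
  push Not at hlt
  rcases Nat.eq_zero_or_pos k with rfl | hk
  · norm_num at hlt
  rcases hall _ hmem hlt with h1 | h1
  · rw [Nat.Prime.pow_minFac hq hk.ne', Nat.log_pow hq.one_lt] at h1
    exact h1 rfl
  · exact h19 ((Nat.prime_dvd_prime_iff_eq hq (by norm_num)).mp (h1 ▸ dvd_pow_self q hk.ne'))

/-- A Sylow 19-subgroup centralises a normal subgroup of order prime to 19. -/
theorem centralizes_normal [Fact (Nat.Prime 19)] (hd : Nat.card G ∣ 175560) (h19 : 19 ∣ Nat.card G)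
    {N : Subgroup G} [N.Normal] (hN : ¬ 19 ∣ Nat.card N) (P : Sylow 19 G) :
    N ≤ centralizer ((P : Subgroup G) : Set G) := by
  rw [← inf_eq_left]
  refine eq_of_le_of_card_ge inf_le_left (Nat.le_of_dvd Nat.card_pos ?_)
  rw [Nat.dvd_iff_prime_pow_dvd_dvd]
  intro q k hq hqk
  have : Fact q.Prime := ⟨hq⟩
  obtain ⟨Q₀, hQ₀⟩ : ∃ Q₀ : Sylow q N, q ^ k ∣ Nat.card ↥(Q₀ : Subgroup N) :=
    ⟨Classical.arbitrary _, Sylow.pow_dvd_card_of_pow_dvd_card _ hqk⟩
  set Q : Subgroup G := (Q₀ : Subgroup N).map N.subtype with hQdef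
  have hcardQ : Nat.card Q = Nat.card ↥(Q₀ : Subgroup N) :=
    card_map_of_injective N.subtype_injective
  have htop : normalizer (Q : Set G) ⊔ N = ⊤ := Sylow.normalizer_sup_eq_top Q₀
  have h19H : 19 ∣ Nat.card ↥(normalizer (Q : Set G)) := by
    have hsurj : Function.Surjective
        ((QuotientGroup.mk' N).comp (normalizer (Q : Set G)).subtype) := by
      intro y
      obtain ⟨g, rfl⟩ := QuotientGroup.mk'_surjective N y
      obtain ⟨a, ha, b, hb, rfl⟩ := (Subgroup.mem_sup_of_normal_right).mp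
        (htop ▸ mem_top g : g ∈ normalizer (Q : Set G) ⊔ N)
      refine ⟨⟨a, ha⟩, ?_⟩
      simp [QuotientGroup.eq_one_iff b |>.mpr hb]
    refine dvd_trans ?_ (card_dvd_of_surjective _ hsurj)
    have hmul := card_eq_card_quotient_mul_card_subgroup N
    exact ((Nat.Prime.dvd_mul (by norm_num)).mp (hmul ▸ h19)).resolve_right hN
  obtain ⟨⟨y, hy⟩, hy19⟩ := exists_prime_orderOf_dvd_card' (G := ↥(normalizer (Q : Set G))) 19 h19H
  have hy' : orderOf y = 19 := by rw [← hy19, Subgroup.orderOf_mk]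
  obtain ⟨R, hR⟩ := (IsPGroup.of_card (n := 1) (by rw [Nat.card_zpowers, hy', pow_one]) :
    IsPGroup 19 ↥(zpowers y)).exists_le_sylow
  have hRy : zpowers y = (R : Subgroup G) :=
    eq_of_le_of_card_ge hR (by rw [card_sylow_nineteen hd h19, Nat.card_zpowers, hy'])
  have hsmall : Nat.card Q < 19 := by
    rw [hcardQ]
    obtain ⟨j, hj⟩ := IsPGroup.iff_card.mp Q₀.isPGroup'
    have hjd : q ^ j ∣ Nat.card N := hj ▸ Subgroup.card_subgroup_dvd_card _
    rw [hj]
    rcases Nat.eq_zero_or_pos j with rfl | hjpos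
    · norm_num
    refine prime_pow_lt hq ((hjd.trans (card_subgroup_dvd_card N)).trans hd) ?_
    rintro rfl
    exact hN ((dvd_pow_self _ hjpos.ne').trans hjd)
  have hQR : Q ≤ centralizer ((R : Subgroup G) : Set G) :=
    le_centralizer_of_normalizes (card_sylow_nineteen hd h19 R) hsmall
      (hRy ▸ zpowers_le.mpr hy)
  obtain ⟨g, hg⟩ := MulAction.exists_smul_eq G R P
  have hsub : Q.map (MulAut.conj g).toMonoidHom ≤ N ⊓ centralizer ((P : Subgroup G) : Set G) := by
    rintro _ ⟨x, hx, rfl⟩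
    refine ⟨(‹N.Normal›).conj_mem x (map_subtype_le _ hx) g, ?_⟩
    show MulAut.conj g x ∈ centralizer ((P : Subgroup G) : Set G)
    rw [mem_centralizer_iff]
    intro z hz
    rw [← hg, Sylow.coe_subgroup_smul, SetLike.mem_coe, mem_pointwise_smul_iff_inv_smul_mem,
      MulAut.smul_def, ← map_inv, MulAut.conj_apply, inv_inv] at hz
    have h1 := mem_centralizer_iff.mp (hQR hx) _ hz
    show z * (g * x * g⁻¹) = g * x * g⁻¹ * z
    calc z * (g * x * g⁻¹) = g * (g⁻¹ * z * g * x) * g⁻¹ := by group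
      _ = g * (x * (g⁻¹ * z * g)) * g⁻¹ := by rw [h1]
      _ = g * x * g⁻¹ * z := by group
  refine hQ₀.trans ?_
  rw [← hcardQ, ← card_map_of_injective (f := (MulAut.conj g).toMonoidHom) (MulAut.conj g).injective]
  exact card_dvd_of_le hsub

/-- The inductive step. -/
theorem normal_of_normal_subgroup [Fact (Nat.Prime 19)] (hd : Nat.card G ∣ 175560)
    (h19 : 19 ∣ Nat.card G)
    (ih : ∀ (H : Type u) [Group H] [Finite H], Nat.card H ∣ Nat.card G → Nat.card H < Nat.card G →
      19 ∣ Nat.card H → ∀ P : Sylow 19 H, (P : Subgroup H).Normal)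
    {N : Subgroup G} [N.Normal] (hN1 : N ≠ ⊥) (hN2 : N ≠ ⊤) (P : Sylow 19 G) :
    (P : Subgroup G).Normal := by
  have hmul := card_eq_card_quotient_mul_card_subgroup N
  have h19p : Nat.Prime 19 := by norm_num
  have hP := card_sylow_nineteen hd h19 P
  by_cases hN : 19 ∣ Nat.card N
  · have hPN : (P : Subgroup G) ≤ N := by
      intro x hx
      rw [← QuotientGroup.eq_one_iff, ← orderOf_eq_one_iff]
      have h1 : orderOf (x : G ⧸ N) ∣ 19 :=
        (orderOf_map_dvd (QuotientGroup.mk' N) x).trans (hP ▸ Subgroup.orderOf_dvd_natCard _ hx)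
      refine ((Nat.dvd_prime h19p).mp h1).resolve_right fun h => sq_not_dvd hd h19p (by norm_num) h19 ?_
      have h2 : 19 * 19 ∣ Nat.card G := hmul ▸ mul_dvd_mul (h ▸ orderOf_dvd_natCard _) hN
      exact Nat.dvd_div_of_mul_dvd h2
    have hlt : Nat.card N < Nat.card G := by
      refine lt_of_le_of_ne (Nat.le_of_dvd Nat.card_pos (card_subgroup_dvd_card N)) fun h => hN2 ?_
      exact eq_top_of_card_eq N h
    have hn := ih N (card_subgroup_dvd_card N) hlt hN (P.subtype hPN)
    have hc := Sylow.characteristic_of_normal _ hn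
    rw [Sylow.coe_subtype] at hc
    have := hc
    have h2 : (((P : Subgroup G).subgroupOf N).map N.subtype).Normal :=
      ConjAct.normal_of_characteristic_of_normal
    rwa [subgroupOf_map_subtype, inf_eq_left.mpr hPN] at h2
  · have hQ19 : 19 ∣ Nat.card (G ⧸ N) :=
      ((Nat.Prime.dvd_mul h19p).mp (hmul ▸ h19)).resolve_right hN
    have hN1' : 1 < Nat.card N := (Subgroup.one_lt_card_iff_ne_bot N).mpr hN1
    have hlt : Nat.card (G ⧸ N) < Nat.card G := by
      rw [hmul]
      exact lt_mul_right Nat.card_pos hN1'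
    have hnq := ih (G ⧸ N) (card_quotient_dvd_card N) hlt hQ19
      (P.mapSurjective (QuotientGroup.mk'_surjective N))
    have hcomm := centralizes_normal hd h19 hN P
    refine ⟨fun x hx g => ?_⟩
    have hmem : g * x * g⁻¹ ∈ N ⊔ (P : Subgroup G) := by
      have h1 := hnq.conj_mem (x : G ⧸ N) (by
        rw [Sylow.coe_mapSurjective]; exact ⟨x, hx, rfl⟩) (g : G ⧸ N)
      rw [Sylow.coe_mapSurjective] at h1
      have h2 : g * x * g⁻¹ ∈ ((P : Subgroup G).map (QuotientGroup.mk' N)).comap (QuotientGroup.mk' N) :=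
        mem_comap.mpr (by simpa using h1)
      rw [comap_map_eq, QuotientGroup.ker_mk', sup_comm] at h2
      exact h2
    have hle : N ⊔ (P : Subgroup G) ≤ normalizer ((P : Subgroup G) : Set G) :=
      sup_le (hcomm.trans (centralizer_le_normalizer _)) le_normalizer
    have h19g : IsPGroup 19 ↥(zpowers (g * x * g⁻¹)) := by
      obtain ⟨j, -, hj⟩ := (Nat.dvd_prime_pow h19p).mp
        (show orderOf (g * x * g⁻¹) ∣ 19 ^ 1 by
          rw [pow_one, ← hP, show g * x * g⁻¹ = MulAut.conj g x from rfl, MulEquiv.orderOf_eq]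
          exact Subgroup.orderOf_dvd_natCard _ hx)
      exact IsPGroup.of_card (n := j) (by rw [Nat.card_zpowers, hj])
    exact ((IsPGroup.inf_normalizer_sylow h19g P).le
      ⟨mem_zpowers _, hle hmem⟩).2

theorem normal_of_lt [Fact (Nat.Prime 19)] (hd : Nat.card G ∣ 175560) (hlt : Nat.card G < 175560)
    (h19 : 19 ∣ Nat.card G) (P : Sylow 19 G) : (P : Subgroup G).Normal := by
  induction hn : Nat.card G using Nat.strong_induction_on generalizing G with
  | _ n ih =>
    subst hn
    by_cases hs : IsSimpleGroup G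
    · by_cases hc : IsMulCommutative G
      · exact Subgroup.normal_of_isMulCommutative _
      · exact absurd (eq_or_false hc hd h19) hlt.ne
    · have : Nontrivial G := Finite.one_lt_card_iff_nontrivial.mp (lt_of_lt_of_le (by norm_num)
        (Nat.le_of_dvd Nat.card_pos h19))
      obtain ⟨N, hN, hN1, hN2⟩ : ∃ N : Subgroup G, N.Normal ∧ N ≠ ⊥ ∧ N ≠ ⊤ := by
        by_contra h
        push Not at h
        exact hs { eq_bot_or_eq_top_of_normal := fun H hH =>
          or_iff_not_imp_left.mpr fun h1 => h H hH h1 }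
      exact normal_of_normal_subgroup hd h19 (fun H _ _ hdH hltH h19H P =>
        ih (Nat.card H) hltH (hdH.trans hd) (hltH.trans hlt) h19H P rfl) hN1 hN2 P

end CfsgLib.SmallGroups.Order175560
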