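import Cfsg.Agent.Lib.SmallGroups.Order175560Search

/-!
The finite search that determines the Sylow data of a simple group of order `175560`.
-/

set_option autoImplicit false

namespace CfsgLib.SmallGroups.Order175560

/-- `|N(P) : C(P)|` recovered from a choice. -/
def eOf (x : ℕ × ℕ × ℕ) : ℕ := 175560 / x.1 / x.2.1 / x.2.2

/-- If the Sylow `s`-subgroup of `C(P)` is unique then `N(P) ≤ N(Q)`. -/
def normOK (x y : ℕ × ℕ × ℕ) : Bool :=
  x.2.2 % y.1 != 0 ||
    (divList.any fun q => decide (1 < q) && (x.2.2 / y.1) % q == 0 && q % y.1 == 1) ||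
    ((y.1 * y.2.2 * eOf y) % (x.1 * x.2.2 * eOf x) == 0 &&
      (y.1 * y.2.2 * eOf y / (x.1 * x.2.2 * eOf x)) % x.1 == 1)

/-- All pairs satisfy `normOK`. -/
def normAll (ch : List (ℕ × ℕ × ℕ)) : Bool := ch.all fun x => ch.all fun y => normOK x y

/-- The odd part of the order of an involution centraliser. -/
def oddPart (ch : List (ℕ × ℕ × ℕ)) : ℕ :=
  (ch.map fun x => if x.2.2 % 2 = 0 then x.1 else 1).prod

/-- Counting commuting pairs of an involution and a Sylow subgroup. -/
def pairsOK (m : ℕ) (x : ℕ × ℕ × ℕ) : Bool :=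
  x.2.2 % 2 != 0 || (List.range (x.2.2 + 1)).any fun i =>
    i % 2 == 1 && (x.2.1 * i * m) % 21945 == 0 && (x.2.1 * i * m / 21945) % x.1 == 1

/-- The configuration with an involution centraliser of order 1320. -/
def confA : List (ℕ × ℕ × ℕ) :=
  [(3, 2926, 10), (5, 2926, 6), (7, 4180, 1), (11, 1596, 2), (19, 1540, 1)]

/-- The configuration with an involution centraliser of order 120. -/
def confB : List (ℕ × ℕ × ℕ) :=
  [(3, 2926, 10), (5, 2926, 6), (7, 4180, 1), (11, 1596, 1), (19, 1540, 1)]

theorem cent_search_bool : ((opts 175560 19).all fun a => (opts 175560 11).all fun b =>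
    !consistent b [a] || (opts 175560 7).all fun c =>
    !consistent c [b, a] || (opts 175560 5).all fun d =>
    !consistent d [c, b, a] || (opts 175560 3).all fun f =>
    !consistent f [d, c, b, a] || !normAll [f, d, c, b, a] ||
      !([f, d, c, b, a].all (pairsOK (oddPart [f, d, c, b, a]))) ||
      !bound 175560 [f, d, c, b, a] ||
      [f, d, c, b, a] == confA || [f, d, c, b, a] == confB) = true := by
  decide +kernel

theorem cent_search {a b c d f : ℕ × ℕ × ℕ} (ha : a ∈ opts 175560 19) (hb : b ∈ opts 175560 11)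
    (hc : c ∈ opts 175560 7) (hd : d ∈ opts 175560 5) (hf : f ∈ opts 175560 3)
    (hab : consistent b [a] = true) (habc : consistent c [b, a] = true)
    (habcd : consistent d [c, b, a] = true) (habcdf : consistent f [d, c, b, a] = true)
    (hn : normAll [f, d, c, b, a] = true)
    (hp : [f, d, c, b, a].all (pairsOK (oddPart [f, d, c, b, a])) = true)
    (hbd : bound 175560 [f, d, c, b, a] = true) :
    [f, d, c, b, a] = confA ∨ [f, d, c, b, a] = confB := by
  have h := List.all_eq_true.mp cent_search_bool a ha
  have h := List.all_eq_true.mp h b hb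
  rw [hab] at h; simp only [Bool.not_true, Bool.false_or] at h
  have h := List.all_eq_true.mp h c hc
  rw [habc] at h; simp only [Bool.not_true, Bool.false_or] at h
  have h := List.all_eq_true.mp h d hd
  rw [habcd] at h; simp only [Bool.not_true, Bool.false_or] at h
  have h := List.all_eq_true.mp h f hf
  rw [habcdf, hn, hp, hbd] at h
  simpa using h

theorem oddPart_eq : ∀ d ∈ divList, d % 2 = 1 →
    ([3, 5, 7, 11, 19].map fun r => if d % r = 0 then r else 1).prod = d := by
  decide +kernel

end CfsgLib.SmallGroups.Order175560
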