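import Cfsg.Agent.Lib.Involutions.ThompsonTransfer
import Cfsg.Agent.Lib.Transfer.Fusion
import Cfsg.Agent.Lib.SmallGroups.Counting
import Cfsg.Agent.Lib.SmallGroups.Basic

/-!
A non-abelian simple group of order `8 * odd` has one class of involutions.
-/

set_option autoImplicit false

namespace CfsgLib.SmallGroups.Order175560

open Subgroup

variable {G : Type*} [Group G] [Finite G]

omit [Finite G] in
theorem not_index_two [IsSimpleGroup G] (hG : ¬ IsMulCommutative G) (K : Subgroup G) :
    K.index ≠ 2 := by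
  intro h
  have hn : K.Normal := normal_of_index_eq_two h
  rcases hn.eq_bot_or_eq_top with rfl | rfl
  · rw [index_bot] at h
    exact hG (by
      have : Fact (Nat.Prime 2) := ⟨Nat.prime_two⟩
      have : IsCyclic G := isCyclic_of_prime_card h
      exact ⟨⟨fun a b => IsCyclic.commGroup.mul_comm a b⟩⟩)
  · rw [index_top] at h; omega

theorem one_class_of_order_eight [IsSimpleGroup G] (hG : ¬ IsMulCommutative G) {m : ℕ}
    (hm : Odd m) (hcard : Nat.card G = 8 * m) (S : Sylow 2 G) :
    ∀ u v : G, orderOf u = 2 → orderOf v = 2 → IsConj u v := by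
  classical
  have : Fact (Nat.Prime 2) := ⟨Nat.prime_two⟩
  have h2m : ¬ 2 ∣ m := fun h => Nat.not_even_iff_odd.2 hm (even_iff_two_dvd.2 h)
  have hS8 : Nat.card (S : Subgroup G) = 8 := by
    simpa using card_sylow_eq (a := 3) (by simpa using hcard) h2m S
  suffices ∃ z, ∀ u : G, orderOf u = 2 → IsConj u z by
    obtain ⟨z, hz⟩ := this
    exact fun u v hu hv => (hz u hu).trans (hz v hv).symm
  by_cases hexp : ∃ x ∈ (S : Subgroup G), x ^ 2 ≠ 1
  · obtain ⟨x, hxS, hx⟩ := hexp
    obtain ⟨y, hyS, hy⟩ : ∃ y ∈ (S : Subgroup G), orderOf y = 4 := by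
      have hd : orderOf x ∣ 2 ^ 3 := by
        rw [show (2 : ℕ) ^ 3 = 8 from rfl, ← hS8]
        exact Subgroup.orderOf_dvd_natCard _ hxS
      obtain ⟨i, hi, he⟩ := (Nat.dvd_prime_pow Nat.prime_two).1 hd
      have h2 : ¬ orderOf x ∣ 2 := fun h => hx (orderOf_dvd_iff_pow_eq_one.1 h)
      rw [he] at h2
      interval_cases i
      · norm_num at h2
      · norm_num at h2
      · exact ⟨x, hxS, by rw [he]; norm_num⟩
      · exact ⟨x ^ 2, pow_mem hxS 2, by rw [orderOf_pow, he]; norm_num⟩
    refine ⟨y ^ 2, fun u hu => ?_⟩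
    by_contra hnc
    have hidx : (zpowers y).index % 4 = 2 := by
      have h := card_mul_index (zpowers y)
      rw [Nat.card_zpowers, hy, hcard] at h
      obtain ⟨k, rfl⟩ := hm
      omega
    obtain ⟨K, hK⟩ := CfsgLib.Involutions.exists_index_two_of_involution_not_conj hu hidx
      fun g hg => hnc (isConj_iff.2 ⟨g, by
        have h := (CfsgLib.Involutions.eq_half_of_mem_zpowers
          ((CfsgLib.Involutions.orderOf_conj g u).trans hu) hg).2
        rw [h, hy]⟩)
    exact not_index_two hG K hK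
  push Not at hexp
  have hcomm : ∀ a ∈ (S : Subgroup G), ∀ b ∈ (S : Subgroup G), a * b = b * a := by
    intro a ha b hb
    have e : ∀ c ∈ (S : Subgroup G), c⁻¹ = c := fun c hc =>
      inv_eq_of_mul_eq_one_right (by rw [← pow_two]; exact hexp c hc)
    calc a * b = (a * b)⁻¹ := (e _ (mul_mem ha hb)).symm
      _ = b⁻¹ * a⁻¹ := mul_inv_rev a b
      _ = b * a := by rw [e a ha, e b hb]
  have hab : IsMulCommutative (S : Subgroup G) :=
    ⟨⟨fun a b => Subtype.ext (hcomm a a.2 b b.2)⟩⟩
  set N := normalizer ((S : Subgroup G) : Set G) with hN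
  have := Fintype.ofFinite G
  let O : G → Finset G := fun x =>
    Finset.univ.filter fun z => z ∈ (S : Subgroup G) ∧ IsConj x z
  have hO : ∀ x ∈ (S : Subgroup G), x ≠ 1 → Odd (O x).card ∧ (O x).card ≠ 1 := by
    intro x hx hx1
    let x' : N := ⟨x, le_normalizer hx⟩
    have he : Nat.card {z : N // IsConj x' z} = (O x).card := by
      rw [← Nat.card_eq_finsetCard]
      refine Nat.card_congr (Equiv.ofBijective (fun z => ⟨(z.1 : G), ?_⟩) ⟨?_, ?_⟩)
      · obtain ⟨n, hn⟩ := isConj_iff.1 z.2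
        have hn' : (n : G) * x * (n : G)⁻¹ = (z.1 : G) := congrArg Subtype.val hn
        simp only [O, Finset.mem_filter, Finset.mem_univ, true_and]
        exact ⟨hn' ▸ (mem_normalizer_iff.1 n.2 x).1 hx, isConj_iff.2 ⟨n, hn'⟩⟩
      · intro a b h
        exact Subtype.ext (Subtype.ext (congrArg Subtype.val h :))
      · rintro ⟨z, hz⟩
        simp only [O, Finset.mem_filter, Finset.mem_univ, true_and] at hz
        obtain ⟨g, hg⟩ := isConj_iff.1 hz.2
        obtain ⟨w, hw, hwx⟩ :=
          CfsgLib.Transfer.abelian_sylow_control S hab x hx g (hg ▸ hz.1)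
        exact ⟨⟨⟨z, le_normalizer hz.1⟩, isConj_iff.2 ⟨⟨w, hw⟩, Subtype.ext (hwx.trans hg)⟩⟩,
          rfl⟩
    have hmul := card_isConj_mul_card_centralizer x'
    rw [he] at hmul
    have h8 : 8 ∣ Nat.card (centralizer ({x'} : Set N)) := by
      rw [← hS8, ← Nat.card_congr (subgroupOfEquivOfLe (le_normalizer (H := (S : Subgroup G)))).toEquiv]
      refine card_dvd_of_le fun y hy => mem_centralizer_singleton.2 (Subtype.ext ?_)
      exact hcomm _ hy _ hx
    obtain ⟨k, hk⟩ := h8
    have hd : (O x).card ∣ m := by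
      have h1 : Nat.card N ∣ 8 * m := hcard ▸ card_subgroup_dvd_card N
      rw [← hmul, hk, ← mul_assoc, mul_comm ((O x).card) 8, mul_assoc] at h1
      exact (dvd_mul_right _ k).trans (Nat.dvd_of_mul_dvd_mul_left (by norm_num) h1)
    refine ⟨hm.of_dvd_nat hd, fun h1 => ?_⟩
    have hall : ∀ g : G, g * x * g⁻¹ ∈ (S : Subgroup G) → g * x * g⁻¹ = x := by
      intro g hg
      have hmem : ∀ z, z ∈ (S : Subgroup G) → IsConj x z → z ∈ O x := fun z h h' => by
        simp only [O, Finset.mem_filter, Finset.mem_univ, true_and]; exact ⟨h, h'⟩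
      exact Finset.card_le_one.1 h1.le _ (hmem _ hg (isConj_iff.2 ⟨g, rfl⟩)) _
        (hmem _ hx (IsConj.refl x))
    let _ : CommGroup (S : Subgroup G) :=
      { (inferInstance : Group (S : Subgroup G)) with mul_comm := fun a b => hab.1.1 a b }
    have key : ∀ (k : ℕ) (g₀ : G), g₀⁻¹ * x ^ k * g₀ ∈ (S : Subgroup G) →
        g₀⁻¹ * x ^ k * g₀ = x ^ k := by
      intro k g₀ hk
      rcases Nat.even_or_odd k with ⟨j, rfl⟩ | ⟨j, rfl⟩
      · rw [← two_mul, pow_mul, hexp x hx, one_pow]; group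
      · rw [pow_succ, pow_mul, hexp x hx, one_pow, one_mul] at hk ⊢
        simpa using hall g₀⁻¹ (by simpa using hk)
    have hidx : (S : Subgroup G).index = m := by
      have h := card_mul_index (S : Subgroup G)
      rw [hS8, hcard] at h
      omega
    let f : G →* (S : Subgroup G) := MonoidHom.transfer (MonoidHom.id (S : Subgroup G))
    have hfx : (f x : G) = x := by
      rw [show f x = _ from MonoidHom.transfer_eq_pow _ x key]
      show x ^ (S : Subgroup G).index = x
      obtain ⟨j, hj⟩ := hm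
      rw [hidx, hj, pow_succ, pow_mul, hexp x hx, one_pow, one_mul]
    rcases (inferInstance : f.ker.Normal).eq_bot_or_eq_top with hk | hk
    · exact hG (IsMulCommutative.of_comm fun a b =>
        (MonoidHom.ker_eq_bot_iff f).1 hk (by rw [map_mul, map_mul, mul_comm]))
    · refine hx1 ?_
      rw [← hfx, (MonoidHom.mem_ker (f := f)).1 (hk ▸ mem_top x)]; rfl
  obtain ⟨w, hwS, hw1⟩ : ∃ w ∈ (S : Subgroup G), w ≠ 1 := by
    obtain ⟨⟨w, hw⟩, hw'⟩ := ne_bot_iff_exists_ne_one.1
      (show (S : Subgroup G) ≠ ⊥ from fun h => by rw [h, card_bot] at hS8; omega)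
    exact ⟨w, hw, fun h => hw' (Subtype.ext h)⟩
  refine ⟨w, fun u hu => ?_⟩
  obtain ⟨a, ha⟩ := CfsgLib.Involutions.exists_conj_mem_of_involution S hu
  have ha1 : a * u * a⁻¹ ≠ 1 :=
    CfsgLib.Involutions.ne_one ((CfsgLib.Involutions.orderOf_conj a u).trans hu)
  refine (isConj_iff.2 ⟨a, rfl⟩ : IsConj u _).trans ?_
  generalize a * u * a⁻¹ = v at ha ha1
  by_contra hnc
  let U := Finset.univ.filter fun z => z ∈ (S : Subgroup G) ∧ z ≠ 1
  have hU : U.card = 7 := by
    have h : Finset.univ.filter (fun z => z ∈ (S : Subgroup G)) = insert 1 U := by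
      ext z
      by_cases hz : z = 1 <;> simp [U, hz, one_mem]
    have hc := congrArg Finset.card h
    rw [Finset.card_insert_of_notMem (by simp [U]), ← Fintype.card_subtype,
      ← Nat.card_eq_fintype_card, hS8] at hc
    omega
  have hsub : ∀ z, z ∈ (S : Subgroup G) → z ≠ 1 → O z ⊆ U := by
    intro z hz hz1 y hy
    simp only [O, U, Finset.mem_filter, Finset.mem_univ, true_and] at hy ⊢
    exact ⟨hy.1, fun h => hz1 (isConj_one_left.1 (h ▸ hy.2))⟩
  have hdisj : ∀ y z, ¬ IsConj y z → Disjoint (O y) (O z) := by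
    intro y z h
    rw [Finset.disjoint_left]
    intro b hb hb'
    simp only [O, Finset.mem_filter, Finset.mem_univ, true_and] at hb hb'
    exact h (hb.2.trans hb'.2.symm)
  obtain ⟨⟨jv, hjv⟩, hv3⟩ := hO v ha ha1
  obtain ⟨⟨jw, hjw⟩, hw3⟩ := hO w hwS hw1
  have hd := hdisj v w hnc
  have hss : O v ∪ O w ⊆ U := Finset.union_subset (hsub v ha ha1) (hsub w hwS hw1)
  have hle := Finset.card_le_card hss
  rw [Finset.card_union_of_disjoint hd, hU] at hle
  obtain ⟨z, hzU, hz⟩ : ∃ z ∈ U, z ∉ O v ∪ O w := by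
    refine Finset.exists_mem_notMem_of_card_lt_card ?_
    rw [Finset.card_union_of_disjoint hd, hU]
    omega
  simp only [U, Finset.mem_filter, Finset.mem_univ, true_and] at hzU
  simp only [O, Finset.mem_union, Finset.mem_filter, Finset.mem_univ, true_and, hzU.1, true_and,
    not_or] at hz
  obtain ⟨⟨jz, hjz⟩, hz3⟩ := hO z hzU.1 hzU.2
  have hle' := Finset.card_le_card (Finset.union_subset hss (hsub z hzU.1 hzU.2))
  rw [Finset.card_union_of_disjoint (Finset.disjoint_union_left.2 ⟨hdisj v z hz.1, hdisj w z hz.2⟩),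
    Finset.card_union_of_disjoint hd, hU] at hle'
  omega

end CfsgLib.SmallGroups.Order175560
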