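import Cfsg.Agent.Lib.SmallGroups.Order175560
import Cfsg.Agent.Lib.SmallGroups.Order175560Class
import Cfsg.Agent.Lib.SmallGroups.Order175560CentSearch

/-!
A simple group of order `175560` has an involution centraliser of order `120`.
-/

set_option autoImplicit false

universe u

namespace CfsgLib.SmallGroups.Order175560

open Subgroup
open scoped Pointwise

variable {G : Type u} [Group G] [Finite G]

theorem Datum.card_normalizer {r n c e : ℕ} [Fact r.Prime] (h : Datum G r n c e) (P : Sylow r G) :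
    Nat.card ↥(normalizer ((P : Subgroup G) : Set G)) = r * c * e := by
  obtain ⟨P₀, hP₀⟩ := h.norm
  have h1 := card_sylow_mul_card_normalizer P
  have h2 := card_sylow_mul_card_normalizer P₀
  rw [h.num] at h1 h2
  rw [← hP₀]
  exact Nat.eq_of_mul_eq_mul_left (by have := h.one_lt; omega) (h1.trans h2.symm)

omit [Finite G] in
theorem Datum.eOf_eq {r n c e : ℕ} [Fact r.Prime] (h : Datum G r n c e)
    (hG : Nat.card G = 175560) : eOf (r, n, c) = e := by
  have hn : 0 < n := by have := h.one_lt; omega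
  have hc : 0 < c := Nat.pos_of_ne_zero fun h0 => h.not_dvd (h0 ▸ dvd_zero r)
  show 175560 / r / n / c = e
  rw [← hG, ← h.prod, Nat.mul_div_cancel_left _ hn, Nat.mul_div_cancel_left _ hc]

/-- If the Sylow `s`-subgroup `Q` of `C(P)` is unique then `N(P) ≤ N(Q)`. -/
theorem norm_holds (hd : Nat.card G ∣ 175560) {r s n c e n' c' e' : ℕ} (hr : r.Prime) (hs : s.Prime)
    (hs2 : s ≠ 2) (h : Datum G r n c e) (h' : Datum G s n' c' e') (hsc : s ∣ c)
    (hno : ∀ q ∈ divList, ¬ (1 < q ∧ (c / s) % q = 0 ∧ q % s = 1)) :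
    r * c * e ∣ s * c' * e' ∧ (s * c' * e' / (r * c * e)) % r = 1 := by
  have : Fact r.Prime := ⟨hr⟩
  have : Fact s.Prime := ⟨hs⟩
  have hrs : r ≠ s := fun e => h.not_dvd (e ▸ hsc)
  obtain ⟨P, -⟩ := h.norm
  set C := centralizer ((P : Subgroup G) : Set G) with hC
  have hc0 : c ∣ 175560 := (Dvd.intro_left r (h.cent P).symm).trans
    ((card_subgroup_dvd_card C).trans hd)
  have hcard : Nat.card C = s ^ 1 * (r * (c / s)) := by
    rw [h.cent P, pow_one, mul_left_comm, Nat.mul_div_cancel' hsc]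
  have hnd : ¬ s ∣ r * (c / s) := fun hdv => (hs.dvd_mul.mp hdv).elim
    (fun h1 => hrs ((Nat.prime_dvd_prime_iff_eq hs hr).mp h1).symm)
    (sq_not_dvd hc0 hs hs2 hsc)
  obtain ⟨Q₀⟩ := (inferInstance : Nonempty (Sylow s C))
  have hQ₀ : Nat.card (Q₀ : Subgroup C) = s := by simpa using card_sylow_eq hcard hnd Q₀
  have hk1 : Nat.card (Sylow s C) = 1 := by
    have hmem := card_sylow_mem hcard hnd
    rw [Finset.mem_filter, Nat.mem_divisors] at hmem
    have hPN : (P : Subgroup G).subgroupOf C ≤ normalizer ((Q₀ : Subgroup C) : Set C) :=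
      fun y hy => centralizer_le_normalizer _ (mem_centralizer_iff.2 fun z _ =>
        Subtype.ext (mem_centralizer_iff.1 z.2 y hy).symm)
    have hrN : r ∣ Nat.card (normalizer ((Q₀ : Subgroup C) : Set C)) := by
      refine dvd_trans (dvd_of_eq ?_) (card_dvd_of_le hPN)
      rw [Nat.card_congr (subgroupOfEquivOfLe (show (P : Subgroup G) ≤ C from ?_)).toEquiv,
        h.sylow P]
      have : IsCyclic (P : Subgroup G) := isCyclic_of_prime_card (h.sylow P)
      intro y hy
      refine mem_centralizer_iff.2 fun z hz => ?_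
      exact congrArg Subtype.val
        (IsCyclic.commGroup.mul_comm (⟨z, hz⟩ : (P : Subgroup G)) ⟨y, hy⟩)
    have hsN : s ∣ Nat.card (normalizer ((Q₀ : Subgroup C) : Set C)) :=
      (dvd_of_eq hQ₀.symm).trans (card_dvd_of_le le_normalizer)
    obtain ⟨w, hw⟩ := ((Nat.coprime_primes hr hs).2 hrs).mul_dvd_of_dvd_of_dvd hrN hsN
    have hmul := card_sylow_mul_card_normalizer Q₀
    rw [hw, hcard, pow_one] at hmul
    have hdvd : Nat.card (Sylow s C) ∣ c / s := ⟨w, by
      refine Nat.eq_of_mul_eq_mul_left (Nat.mul_pos hr.pos hs.pos) ?_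
      linear_combination -hmul⟩
    by_contra hne
    refine hno _ (mem_divList (hdvd.trans ((Nat.div_dvd_of_dvd hsc).trans hc0)))
      ⟨?_, Nat.mod_eq_zero_of_dvd hdvd, hmem.2⟩
    have : 0 < Nat.card (Sylow s C) := Nat.card_pos
    omega
  have : Subsingleton (Sylow s C) := (Nat.card_eq_one_iff_unique.1 hk1).1
  set Q := (Q₀ : Subgroup C).map C.subtype with hQ
  have hQc : Nat.card Q = s := by rw [hQ, card_map_of_injective C.subtype_injective, hQ₀]
  obtain ⟨R, hR⟩ := (IsPGroup.of_card (n := 1) (by rw [hQc, pow_one]) :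
    IsPGroup s Q).exists_le_sylow
  have hRQ : Q = (R : Subgroup G) := eq_of_le_of_card_ge hR (by rw [h'.sylow, hQc])
  have huniq : ∀ y ∈ C, orderOf y ∣ s → y ∈ (R : Subgroup G) := by
    intro y hy hdy
    obtain ⟨j, -, hj⟩ := (Nat.dvd_prime_pow hs).mp (show orderOf y ∣ s ^ 1 by rwa [pow_one])
    obtain ⟨Q₁, hQ₁⟩ := (IsPGroup.of_card (n := j) (by
      rw [Nat.card_zpowers, Subgroup.orderOf_mk, hj]) :
      IsPGroup s ↥(zpowers (⟨y, hy⟩ : C))).exists_le_sylow
    rw [← hRQ]
    exact ⟨⟨y, hy⟩, Subsingleton.elim Q₁ Q₀ ▸ hQ₁ (mem_zpowers _), rfl⟩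
  have hconjC : ∀ g ∈ normalizer ((P : Subgroup G) : Set G), ∀ x ∈ (R : Subgroup G),
      g * x * g⁻¹ ∈ (R : Subgroup G) := by
    intro g hg x hx
    refine huniq _ ?_ ?_
    · have hxC : x ∈ C := by
        rw [← hRQ] at hx
        obtain ⟨y, -, rfl⟩ := hx
        exact y.2
      rw [hC, mem_centralizer_iff]
      intro z hz
      have hz' : g⁻¹ * z * g ∈ (P : Subgroup G) := (mem_normalizer_iff''.1 hg z).1 hz
      have h1 := mem_centralizer_iff.1 hxC _ hz'
      calc z * (g * x * g⁻¹) = g * ((g⁻¹ * z * g) * x) * g⁻¹ := by group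
        _ = g * (x * (g⁻¹ * z * g)) * g⁻¹ := by rw [h1]
        _ = g * x * g⁻¹ * z := by group
    · rw [show g * x * g⁻¹ = MulAut.conj g x from rfl, MulEquiv.orderOf_eq, ← h'.sylow R]
      exact Subgroup.orderOf_dvd_natCard _ hx
  have hle : normalizer ((P : Subgroup G) : Set G) ≤ normalizer ((R : Subgroup G) : Set G) := by
    intro g hg
    rw [mem_normalizer_iff]
    intro x
    refine ⟨hconjC g hg x, fun hx => ?_⟩
    have := hconjC g⁻¹ (inv_mem hg) _ hx
    simpa [mul_assoc] using this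
  set H := normalizer ((R : Subgroup G) : Set G) with hH
  have hPH : (P : Subgroup G) ≤ H := le_normalizer.trans hle
  have hidx := (P.subtype hPH).card_eq_index_normalizer
  change Nat.card (Sylow r H) =
    (normalizer (((P.subtype hPH : Sylow r H) : Subgroup H) : Set H)).index at hidx
  rw [Sylow.coe_subtype, ← subgroupOf_normalizer_eq hPH] at hidx
  have hmul := card_mul_index ((normalizer ((P : Subgroup G) : Set G)).subgroupOf H)
  rw [← hidx, Nat.card_congr (subgroupOfEquivOfLe hle).toEquiv, h.card_normalizer P,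
    hH, h'.card_normalizer R] at hmul
  refine ⟨⟨_, hmul.symm⟩, ?_⟩
  have hpos : 0 < r * c * e := h.card_normalizer P ▸ Nat.card_pos
  rw [← hmul, Nat.mul_div_cancel_left _ hpos]
  have h1 : Nat.card (Sylow r H) % r = 1 % r := card_sylow_modEq_one r H
  rwa [Nat.mod_eq_of_lt hr.one_lt] at h1

/-- The involutions centralising a subgroup. -/
noncomputable def invCount (K : Subgroup G) : ℕ :=
  Nat.card {x : G // orderOf x = 2 ∧ x ∈ centralizer (K : Set G)}

omit [Finite G] in
theorem invCount_eq_card (K : Subgroup G) :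
    invCount K = Nat.card {x : ↥(centralizer (K : Set G)) // orderOf x = 2} :=
  Nat.card_congr
    ⟨fun x => ⟨⟨x.1, x.2.2⟩, by rw [Subgroup.orderOf_mk]; exact x.2.1⟩,
      fun x => ⟨x.1, by rw [Subgroup.orderOf_coe]; exact x.2, x.1.2⟩, fun _ => rfl, fun _ => rfl⟩

theorem odd_invCount {K : Subgroup G} (h : 2 ∣ Nat.card ↥(centralizer (K : Set G))) :
    invCount K % 2 = 1 := by
  classical
  rw [invCount_eq_card]
  set C := ↥(centralizer (K : Set G))
  have := Fintype.ofFinite C
  let σ : Equiv.Perm C := Equiv.inv C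
  have hσ : σ ^ 2 = 1 := Equiv.ext fun x => by simp [σ, pow_two]
  have h2 := Equiv.Perm.two_dvd_card_support hσ
  have hset : Finset.univ.filter (fun x : C => σ x = x) =
      insert 1 (Finset.univ.filter fun x : C => orderOf x = 2) := by
    ext x
    by_cases hx : x = 1
    · simp [hx, σ]
    · simp only [σ, Equiv.inv_apply, Finset.mem_filter, Finset.mem_univ, true_and,
        Finset.mem_insert, hx, false_or, inv_eq_iff_mul_eq_one]
      exact ⟨fun h => orderOf_eq_prime (by rw [pow_two]; exact h) hx,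
        fun h => by rw [← pow_two, ← h]; exact pow_orderOf_eq_one x⟩
  have hsupp : Finset.univ.filter (fun x : C => ¬ σ x = x) = σ.support := by
    ext x; simp [Equiv.Perm.mem_support]
  have hsum := Finset.card_filter_add_card_filter_not (s := Finset.univ) (fun x : C => σ x = x)
  rw [hset, hsupp, Finset.card_insert_of_notMem (by simp), Finset.card_univ,
    ← Nat.card_eq_fintype_card] at hsum
  rw [Nat.card_eq_fintype_card, Fintype.card_subtype]
  obtain ⟨a, ha⟩ := h
  obtain ⟨b, hb⟩ := h2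
  rw [hb] at hsum
  have hpar : ∀ x : ℕ, x + 1 + 2 * b = 2 * a → x % 2 = 1 := fun x hx => by omega
  convert hpar _ (hsum.trans ha)

theorem invCount_le {r n c e : ℕ} (hr : r.Prime) (hr2 : r ≠ 2) (h : Datum G r n c e)
    (P : Sylow r G) : invCount (P : Subgroup G) ≤ c := by
  have : Fact r.Prime := ⟨hr⟩
  set C := centralizer ((P : Subgroup G) : Set G) with hC
  have hPC : (P : Subgroup G) ≤ C := by
    have : IsCyclic (P : Subgroup G) := isCyclic_of_prime_card (h.sylow P)
    intro y hy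
    refine mem_centralizer_iff.2 fun z hz => ?_
    exact congrArg Subtype.val (IsCyclic.commGroup.mul_comm (⟨z, hz⟩ : (P : Subgroup G)) ⟨y, hy⟩)
  have hidx : ((P : Subgroup G).subgroupOf C).index = c := by
    have := card_mul_index ((P : Subgroup G).subgroupOf C)
    rw [Nat.card_congr (subgroupOfEquivOfLe hPC).toEquiv, h.sylow P, h.cent P] at this
    exact Nat.eq_of_mul_eq_mul_left hr.pos this
  rw [← hidx, index_eq_card]
  refine Nat.card_le_card_of_injective
    (fun x => ((⟨x.1, x.2.2⟩ : C) : C ⧸ (P : Subgroup G).subgroupOf C)) ?_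
  rintro ⟨x, hx, hxC⟩ ⟨y, hy, hyC⟩ he
  have he' : ((⟨x, hxC⟩ : C) : C ⧸ (P : Subgroup G).subgroupOf C) = ((⟨y, hyC⟩ : C) : _) := he
  have hmem : x⁻¹ * y ∈ (P : Subgroup G) := mem_subgroupOf.1 (QuotientGroup.eq.1 he')
  have hcom : Commute x (x⁻¹ * y) := (mem_centralizer_iff.1 hxC _ hmem).symm
  have hxy : Commute x y := by simpa using (Commute.refl x).mul_right hcom
  have h1 : orderOf (x⁻¹ * y) ∣ 2 := orderOf_dvd_of_pow_eq_one (by
    rw [hxy.inv_left.mul_pow, inv_pow, ← hx, pow_orderOf_eq_one, hx, ← hy, pow_orderOf_eq_one]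
    simp)
  have h2 : orderOf (x⁻¹ * y) ∣ r := h.sylow P ▸ Subgroup.orderOf_dvd_natCard _ hmem
  have h3 := Nat.dvd_gcd h1 h2
  rw [(Nat.coprime_primes Nat.prime_two hr).2 hr2.symm, Nat.dvd_one, orderOf_eq_one_iff,
    inv_mul_eq_one] at h3
  exact Subtype.ext h3

omit [Finite G] in
theorem invCount_smul {r : ℕ} [Fact r.Prime] (g : G) (P : Sylow r G) :
    invCount ((g • P : Sylow r G) : Subgroup G) = invCount (P : Subgroup G) := by
  refine (Nat.card_congr (Equiv.subtypeEquiv (MulAut.conj g).toEquiv fun x => ?_)).symm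
  show orderOf x = 2 ∧ _ ↔ orderOf (MulAut.conj g x) = 2 ∧ MulAut.conj g x ∈ _
  rw [MulEquiv.orderOf_eq]
  refine and_congr_right fun _ => ?_
  rw [mem_centralizer_iff, mem_centralizer_iff]
  constructor
  · intro hx y hy
    rw [Sylow.coe_subgroup_smul, SetLike.mem_coe, mem_pointwise_smul_iff_inv_smul_mem] at hy
    obtain ⟨z, hz, rfl⟩ : ∃ z ∈ (P : Subgroup G), MulAut.conj g z = y :=
      ⟨_, hy, by simp [MulAut.smul_def, mul_assoc]⟩
    rw [← map_mul, ← map_mul, hx z hz]
  · intro hx y hy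
    refine (MulAut.conj g).injective ?_
    rw [map_mul, map_mul]
    refine hx _ ?_
    rw [Sylow.coe_subgroup_smul, SetLike.mem_coe, mem_pointwise_smul_iff_inv_smul_mem,
      MulAut.smul_def, MulAut.inv_apply_self]
    exact hy

/-- Double counting of commuting pairs of an involution and a Sylow subgroup. -/
theorem pairs (hG : Nat.card G = 175560) {t : G}
    (hclass : ∀ u : G, orderOf u = 2 → IsConj t u) (ht : orderOf t = 2) {m : ℕ}
    (hm : Nat.card ↥(centralizer ({t} : Set G)) = 8 * m) {r n c e : ℕ} (hr : r.Prime) (hr2 : r ≠ 2)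
    (h : Datum G r n c e) (hc : 2 ∣ c) (P : Sylow r G) :
    invCount (P : Subgroup G) % 2 = 1 ∧ invCount (P : Subgroup G) ≤ c ∧
      (n * invCount (P : Subgroup G) * m) % 21945 = 0 ∧
      (n * invCount (P : Subgroup G) * m / 21945) % r = 1 := by
  classical
  have : Fact r.Prime := ⟨hr⟩
  have := Fintype.ofFinite (Sylow r G)
  have := Fintype.ofFinite G
  set i := invCount (P : Subgroup G) with hi
  have hodd : i % 2 = 1 := odd_invCount (by rw [h.cent P]; exact hc.mul_left r)
  refine ⟨hodd, invCount_le hr hr2 h P, ?_⟩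
  set k := Nat.card {Q : Sylow r G // t ∈ centralizer ((Q : Subgroup G) : Set G)} with hk
  have hku : ∀ x : G, orderOf x = 2 →
      Nat.card {Q : Sylow r G // x ∈ centralizer ((Q : Subgroup G) : Set G)} = k := by
    intro x hx
    obtain ⟨g, rfl⟩ := isConj_iff.1 (hclass x hx)
    refine (Nat.card_congr (Equiv.subtypeEquiv (MulAction.toPerm g) fun Q => ?_)).symm
    show _ ↔ g * t * g⁻¹ ∈ centralizer (((g • Q : Sylow r G) : Subgroup G) : Set G)
    rw [mem_centralizer_iff, mem_centralizer_iff, Sylow.coe_subgroup_smul]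
    constructor
    · intro hQ y hy
      rw [SetLike.mem_coe, mem_pointwise_smul_iff_inv_smul_mem, MulAut.smul_def, ← map_inv,
        MulAut.conj_apply, inv_inv] at hy
      calc y * (g * t * g⁻¹) = g * ((g⁻¹ * y * g) * t) * g⁻¹ := by group
        _ = g * (t * (g⁻¹ * y * g)) * g⁻¹ := by rw [hQ _ hy]
        _ = g * t * g⁻¹ * y := by group
    · intro hQ y hy
      have h1 := hQ (g * y * g⁻¹) (by
        rw [SetLike.mem_coe, mem_pointwise_smul_iff_inv_smul_mem, MulAut.smul_def, ← map_inv,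
          MulAut.conj_apply, inv_inv]
        rw [show g⁻¹ * (g * y * g⁻¹) * g = y by group]
        exact hy)
      calc y * t = g⁻¹ * ((g * y * g⁻¹) * (g * t * g⁻¹)) * g := by group
        _ = g⁻¹ * ((g * t * g⁻¹) * (g * y * g⁻¹)) * g := by rw [h1]
        _ = t * y := by group
  have hinv : Nat.card {x : G // orderOf x = 2} * (8 * m) = 175560 := by
    rw [← hm, ← hG, ← card_isConj_mul_card_centralizer t]
    congr 1
    refine Nat.card_congr (Equiv.subtypeEquivRight fun x => ⟨hclass x, fun hx => ?_⟩)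
    obtain ⟨g, rfl⟩ := isConj_iff.1 hx
    rw [show g * t * g⁻¹ = MulAut.conj g t from rfl, MulEquiv.orderOf_eq, ht]
  have hni : n * i = Nat.card {x : G // orderOf x = 2} * k := by
    let e' : (Σ Q : Sylow r G, {x : G // orderOf x = 2 ∧ x ∈ centralizer ((Q : Subgroup G) : Set G)}) ≃
        (Σ x : {x : G // orderOf x = 2},
          {Q : Sylow r G // x.1 ∈ centralizer ((Q : Subgroup G) : Set G)}) :=
      ⟨fun a => ⟨⟨a.2.1, a.2.2.1⟩, ⟨a.1, a.2.2.2⟩⟩, fun a => ⟨a.2.1, ⟨a.1.1, a.1.2, a.2.2⟩⟩,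
        fun _ => rfl, fun _ => rfl⟩
    have h1 := Nat.card_congr e'
    rw [Nat.card_sigma, Nat.card_sigma, Finset.sum_const_nat (m := i) (fun Q _ => ?_),
      Finset.sum_const_nat (m := k) (fun x _ => hku x.1 x.2), Finset.card_univ, Finset.card_univ,
      ← Nat.card_eq_fintype_card, ← Nat.card_eq_fintype_card, h.num] at h1
    · exact h1
    · obtain ⟨g, rfl⟩ := MulAction.exists_smul_eq G P Q
      exact invCount_smul g P
  have hkm : n * i * m = 21945 * k := by
    refine Nat.eq_of_mul_eq_mul_left (show 0 < 8 by norm_num) ?_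
    calc 8 * (n * i * m) = (Nat.card {x : G // orderOf x = 2} * k) * (8 * m) := by rw [← hni]; ring
      _ = 175560 * k := by rw [← hinv]; ring
      _ = 8 * (21945 * k) := by ring
  rw [hkm, Nat.mul_mod_right, Nat.mul_div_cancel_left _ (by norm_num)]
  refine ⟨rfl, ?_⟩
  obtain ⟨Q₀, hQ₀⟩ : ∃ Q : Sylow r G, t ∈ centralizer ((Q : Subgroup G) : Set G) := by
    by_contra hcon
    push Not at hcon
    have : IsEmpty {Q : Sylow r G // t ∈ centralizer ((Q : Subgroup G) : Set G)} :=
      ⟨fun Q => hcon Q.1 Q.2⟩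
    rw [show k = 0 from Nat.card_of_isEmpty, mul_zero] at hni
    rcases Nat.mul_eq_zero.1 hni with h0 | h0
    · have := h.one_lt; omega
    · omega
  have hmod := card_modEq_card_filter Q₀.isPGroup'
    (Finset.univ.filter fun Q : Sylow r G => t ∈ centralizer ((Q : Subgroup G) : Set G))
    fun g hg Q hQ => by
      simp only [Finset.mem_filter, Finset.mem_univ, true_and] at hQ ⊢
      have hgt : g * t = t * g := mem_centralizer_iff.1 hQ₀ g hg
      rw [mem_centralizer_iff] at hQ ⊢
      intro y hy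
      rw [Sylow.coe_subgroup_smul, SetLike.mem_coe, mem_pointwise_smul_iff_inv_smul_mem,
        MulAut.smul_def, ← map_inv, MulAut.conj_apply, inv_inv] at hy
      have hgc : Commute g t := hgt
      calc y * t = g * (g⁻¹ * y * g) * (g⁻¹ * t) := by group
        _ = g * (g⁻¹ * y * g) * (t * g⁻¹) := by rw [hgc.inv_left.eq]
        _ = g * ((g⁻¹ * y * g) * t) * g⁻¹ := by group
        _ = g * (t * (g⁻¹ * y * g)) * g⁻¹ := by rw [hQ _ hy]
        _ = (g * t) * (g⁻¹ * y) := by group
        _ = (t * g) * (g⁻¹ * y) := by rw [hgt]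
        _ = t * y := by group
  have hsingle : ((Finset.univ.filter
      fun Q : Sylow r G => t ∈ centralizer ((Q : Subgroup G) : Set G)).filter
      fun Q => ∀ g ∈ (Q₀ : Subgroup G), g • Q = Q) = {Q₀} := by
    ext Q
    simp only [Finset.mem_filter, Finset.mem_univ, true_and, Finset.mem_singleton]
    refine ⟨fun hQ => (sylow_eq_of_le (mem_of_isPGroup_of_smul_eq Q₀.isPGroup' hQ.2)).symm, ?_⟩
    rintro rfl
    exact ⟨hQ₀, fun g hg => Sylow.smul_eq_iff_mem_normalizer.mpr (le_normalizer hg)⟩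
  rw [hsingle, Finset.card_singleton, ← Fintype.card_subtype, ← Nat.card_eq_fintype_card] at hmod
  have h1 : k % r = 1 % r := hmod
  rwa [Nat.mod_eq_of_lt hr.one_lt] at h1

theorem exists_sylow_two_le_centralizer (heven : 2 ∣ Nat.card G) {t : G}
    (hclass : ∀ u : G, orderOf u = 2 → IsConj t u) :
    ∃ S : Sylow 2 G, (S : Subgroup G) ≤ centralizer ({t} : Set G) := by
  have : Fact (Nat.Prime 2) := ⟨Nat.prime_two⟩
  obtain ⟨S⟩ := (inferInstance : Nonempty (Sylow 2 G))
  obtain ⟨z, hzS, hz⟩ : ∃ z : G, (∀ x ∈ (S : Subgroup G), x * z = z * x) ∧ orderOf z = 2 := by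
    have hne : Nontrivial (S : Subgroup G) := by
      rw [nontrivial_iff_ne_bot]
      exact sylow_ne_bot heven S
    have := S.isPGroup'.center_nontrivial
    obtain ⟨k, hk⟩ :=
      IsPGroup.iff_card.1 (S.isPGroup'.to_subgroup (Subgroup.center (S : Subgroup G)))
    have h1 := Finite.one_lt_card (α := Subgroup.center (S : Subgroup G))
    obtain ⟨z, hz⟩ := exists_prime_orderOf_dvd_card' (G := Subgroup.center (S : Subgroup G)) 2 (by
      rcases k with _ | k
      · rw [hk, pow_zero] at h1; omega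
      · rw [hk, pow_succ]; exact dvd_mul_left _ _)
    exact ⟨((z : (S : Subgroup G)) : G),
      fun x hx => congrArg Subtype.val (mem_center_iff.1 z.2 ⟨x, hx⟩),
      by rw [Subgroup.orderOf_coe, Subgroup.orderOf_coe, hz]⟩
  obtain ⟨g, rfl⟩ := isConj_iff.1 (hclass z hz)
  refine ⟨g⁻¹ • S, fun x hx => mem_centralizer_singleton.2 ?_⟩
  rw [Sylow.coe_subgroup_smul, mem_pointwise_smul_iff_inv_smul_mem, map_inv, inv_inv,
    MulAut.smul_def, MulAut.conj_apply] at hx
  have h1 := hzS _ hx
  calc x * t = g⁻¹ * ((g * x * g⁻¹) * (g * t * g⁻¹)) * g := by group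
    _ = g⁻¹ * ((g * t * g⁻¹) * (g * x * g⁻¹)) * g := by rw [h1]
    _ = t * x := by group

theorem eq_of_dvd_of_iff {m : ℕ} (hm : m ∈ divList) (hodd : m % 2 = 1) {f : ℕ → ℕ}
    (h : ∀ r ∈ [3, 5, 7, 11, 19], r ∣ m ↔ f r % 2 = 0) :
    m = ([3, 5, 7, 11, 19].map fun r => if f r % 2 = 0 then r else 1).prod := by
  conv_lhs => rw [← oddPart_eq m hm hodd]
  congr 1
  refine List.map_congr_left fun r hr => ?_
  simp only [← Nat.dvd_iff_mod_eq_zero] at *
  simp only [h r hr]

end CfsgLib.SmallGroups.Order175560
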