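import Cfsg.Agent.Lib.SmallGroups.Order175560Cent
import Cfsg.Agent.Lib.Involutions.BrauerSuzuki
import Cfsg.Agent.Lib.J1Order.Setup
import Cfsg.Agent.Lib.SL2.Dickson.Sixty
import Cfsg.Agent.Lib.InvChar.HallJanko.A5Facts

/-!
A simple group of order `175560` has an involution centraliser `2 × A₅`.
-/

set_option autoImplicit false

universe u

namespace CfsgLib.SmallGroups.Order175560

open Subgroup

variable {G : Type u} [Group G] [Finite G] [IsSimpleGroup G]

theorem exists_data (hG : Nat.card G = 175560) {r : ℕ} (hr : r.Prime) (hr2 : r ≠ 2)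
    (hrd : r ∣ 175560) : ∃ x : ℕ × ℕ, ∃ e, Datum G r x.1 x.2 e := by
  obtain ⟨n, c, e, h⟩ := exists_datum (not_isMulCommutative_of_card_eq hG (by norm_num))
    (dvd_of_eq hG) hr hr2 (hG ▸ hrd)
  exact ⟨(n, c), e, h⟩

omit [IsSimpleGroup G] in
theorem dvd_cent_iff {t : G} (ht : orderOf t = 2)
    (hclass : ∀ u : G, orderOf u = 2 → IsConj t u) {r n c e : ℕ} (hr : r.Prime) (hr2 : r ≠ 2)
    (h : Datum G r n c e) : r ∣ Nat.card ↥(centralizer ({t} : Set G)) ↔ c % 2 = 0 := by
  have : Fact r.Prime := ⟨hr⟩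
  have : Fact (Nat.Prime 2) := ⟨Nat.prime_two⟩
  have hconj : ∀ g : G, Nat.card ↥(centralizer ({g * t * g⁻¹} : Set G)) =
      Nat.card ↥(centralizer ({t} : Set G)) := by
    intro g
    have h1 := card_isConj_mul_card_centralizer (g * t * g⁻¹)
    have h2 := card_isConj_mul_card_centralizer t
    have h3 : Nat.card {y : G // IsConj (g * t * g⁻¹) y} = Nat.card {y : G // IsConj t y} :=
      Nat.card_congr (Equiv.subtypeEquivRight fun y =>
        ⟨fun hy => (isConj_iff.2 ⟨g, rfl⟩ : IsConj t _).trans hy,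
          fun hy => (isConj_iff.2 ⟨g, rfl⟩ : IsConj t _).symm.trans hy⟩)
    have hpos : 0 < Nat.card {y : G // IsConj t y} :=
      have : Nonempty {y : G // IsConj t y} := ⟨⟨t, IsConj.refl t⟩⟩
      Nat.card_pos
    rw [h3] at h1
    exact Nat.eq_of_mul_eq_mul_left hpos (h1.trans h2.symm)
  constructor
  · intro hd
    obtain ⟨⟨y, hy⟩, hyo⟩ := exists_prime_orderOf_dvd_card'
      (G := ↥(centralizer ({t} : Set G))) r hd
    rw [Subgroup.orderOf_mk] at hyo
    obtain ⟨Q, hQ⟩ := (IsPGroup.of_card (n := 1) (by rw [Nat.card_zpowers, hyo, pow_one]) :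
      IsPGroup r ↥(zpowers y)).exists_le_sylow
    have hQe : zpowers y = (Q : Subgroup G) :=
      eq_of_le_of_card_ge hQ (by rw [h.sylow, Nat.card_zpowers, hyo])
    have htQ : t ∈ centralizer ((Q : Subgroup G) : Set G) := by
      rw [← hQe, mem_centralizer_iff]
      intro z hz
      obtain ⟨k, rfl⟩ := mem_zpowers_iff.1 hz
      exact ((show Commute y t from mem_centralizer_singleton.1 hy).zpow_left k).eq
    have h2 := Subgroup.orderOf_dvd_natCard _ htQ
    rw [ht, h.cent] at h2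
    exact Nat.mod_eq_zero_of_dvd ((Nat.prime_two.dvd_mul.1 h2).resolve_left fun h' =>
      hr2 ((Nat.prime_dvd_prime_iff_eq Nat.prime_two hr).1 h').symm)
  · intro hc
    obtain ⟨P, -⟩ := h.norm
    obtain ⟨⟨x, hxC⟩, hx⟩ := exists_prime_orderOf_dvd_card'
      (G := ↥(centralizer ((P : Subgroup G) : Set G))) 2
      (by rw [h.cent P]; exact (Nat.dvd_of_mod_eq_zero hc).mul_left r)
    rw [Subgroup.orderOf_mk] at hx
    obtain ⟨g, rfl⟩ := isConj_iff.1 (hclass x hx)
    rw [← hconj g, ← h.sylow P]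
    refine card_dvd_of_le fun y hy => mem_centralizer_singleton.2 ?_
    exact mem_centralizer_iff.1 hxC y hy

/-- The two possible configurations. -/
theorem conf (hG : Nat.card G = 175560) {t : G} (ht : orderOf t = 2)
    (hclass : ∀ u : G, orderOf u = 2 → IsConj t u) :
    ∃ m, Nat.card ↥(centralizer ({t} : Set G)) = 8 * m ∧
      ((m = 165 ∧ ∀ x ∈ confA, ∃ e, Datum G x.1 x.2.1 x.2.2 e) ∨
        (m = 15 ∧ ∀ x ∈ confB, ∃ e, Datum G x.1 x.2.1 x.2.2 e)) := by
  have hnc := not_isMulCommutative_of_card_eq hG (by norm_num)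
  obtain ⟨S, hS⟩ := exists_sylow_two_le_centralizer (hG ▸ (by norm_num)) hclass
  have : Fact (Nat.Prime 2) := ⟨Nat.prime_two⟩
  have hS8 : Nat.card (S : Subgroup G) = 8 :=
    card_sylow_eq (a := 3) (m := 21945) (by rw [hG]; norm_num) (by norm_num) S
  obtain ⟨m, hm⟩ : 8 ∣ Nat.card ↥(centralizer ({t} : Set G)) := hS8 ▸ card_dvd_of_le hS
  have hmd : m ∣ 21945 := by
    have h := card_subgroup_dvd_card (centralizer ({t} : Set G))
    rw [hm, hG, show (175560 : ℕ) = 8 * 21945 by norm_num] at h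
    exact Nat.dvd_of_mul_dvd_mul_left (by norm_num) h
  have hmodd : m % 2 = 1 := Nat.odd_iff.1 (Odd.of_dvd_nat (by norm_num) hmd)
  have hmL : m ∈ divList := mem_divList (hmd.trans (by norm_num))
  obtain ⟨⟨na, ca⟩, ea, hA⟩ := exists_data hG (r := 19) (by norm_num) (by norm_num) (by norm_num)
  obtain ⟨⟨nb, cb⟩, eb, hB⟩ := exists_data hG (r := 11) (by norm_num) (by norm_num) (by norm_num)
  obtain ⟨⟨nc, cc⟩, ec, hC⟩ := exists_data hG (r := 7) (by norm_num) (by norm_num) (by norm_num)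
  obtain ⟨⟨nd, cd⟩, ed, hD⟩ := exists_data hG (r := 5) (by norm_num) (by norm_num) (by norm_num)
  obtain ⟨⟨nf, cf⟩, ef, hF⟩ := exists_data hG (r := 3) (by norm_num) (by norm_num) (by norm_num)
  dsimp only at hA hB hC hD hF
  set ch : List (ℕ × ℕ × ℕ) :=
    [(3, nf, cf), (5, nd, cd), (7, nc, cc), (11, nb, cb), (19, na, ca)] with hch
  have hdat : ∀ x ∈ ch, x.1.Prime ∧ x.1 ≠ 2 ∧ ∃ e, Datum G x.1 x.2.1 x.2.2 e := by
    simp only [hch, List.mem_cons, List.not_mem_nil, or_false, forall_eq_or_imp, forall_eq]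
    exact ⟨⟨by norm_num, by norm_num, ef, hF⟩, ⟨by norm_num, by norm_num, ed, hD⟩,
      ⟨by norm_num, by norm_num, ec, hC⟩, ⟨by norm_num, by norm_num, eb, hB⟩,
      by norm_num, by norm_num, ea, hA⟩
  have hd : Nat.card G ∣ 175560 := dvd_of_eq hG
  have hmem : ∀ {r n c e : ℕ}, r.Prime → r ∣ 175560 → Datum G r n c e →
      (r, n, c) ∈ opts 175560 r := fun hr hrd h => hG ▸ mem_opts hnc hd hr (hG ▸ hrd) h
  have hnd : (ch.map fun x => x.1).Nodup := by simp [hch]
  have hcons : ∀ x ∈ ch, ∀ l : List (ℕ × ℕ × ℕ), (∀ y ∈ l, y ∈ ch ∧ x.1 ≠ y.1) →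
      consistent x l = true := by
    intro x hx l hl
    rw [consistent, List.all_eq_true]
    intro y hy
    obtain ⟨hym, hne⟩ := hl y hy
    obtain ⟨hp, -, e, hX⟩ := hdat x hx
    obtain ⟨hq, -, e', hY⟩ := hdat y hym
    rw [beq_iff_eq, Bool.eq_iff_iff, beq_iff_eq, beq_iff_eq, ← Nat.dvd_iff_mod_eq_zero,
      ← Nat.dvd_iff_mod_eq_zero]
    exact ⟨link hp hq hne hX hY, link hq hp hne.symm hY hX⟩
  have hnorm : normAll ch = true := by
    simp only [normAll, List.all_eq_true]
    intro x hx y hy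
    obtain ⟨hp, -, e, hX⟩ := hdat x hx
    obtain ⟨hq, hq2, e', hY⟩ := hdat y hy
    have : Fact x.1.Prime := ⟨hp⟩
    have : Fact y.1.Prime := ⟨hq⟩
    have ex : eOf x = e := hX.eOf_eq hG
    have ey : eOf y = e' := hY.eOf_eq hG
    simp only [normOK, ex, ey, Bool.or_eq_true, Bool.and_eq_true, bne_iff_ne, ne_eq, beq_iff_eq,
      List.any_eq_true, decide_eq_true_eq]
    by_contra hcon
    push Not at hcon
    obtain ⟨⟨hsc, hno⟩, hfail⟩ := hcon
    obtain ⟨h1, h2⟩ := norm_holds hd hp hq hq2 hX hY (Nat.dvd_of_mod_eq_zero hsc)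
      fun q hq1 hq3 => hno q hq1 ⟨hq3.1, hq3.2.1⟩ hq3.2.2
    exact hfail (Nat.mod_eq_zero_of_dvd h1) h2
  have hbound : bound 175560 ch = true := by
    rw [bound, List.all_eq_true]
    intro S hS
    rw [Bool.or_eq_true, Bool.not_eq_true', decide_eq_true_eq]
    by_cases hu : unlinked S = true
    · exact Or.inr (hG ▸ count hnd (fun x hx => ⟨(hdat x hx).1, (hdat x hx).2.2⟩)
        (fun x hx => (List.mem_sublists.mp hS).subset hx) hu)
    · exact Or.inl (by simpa using hu)
  have hm' : m = oddPart ch := by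
    let f : ℕ → ℕ := fun r =>
      if r = 3 then cf else if r = 5 then cd else if r = 7 then cc else if r = 11 then cb else ca
    rw [eq_of_dvd_of_iff hmL hmodd (f := f) ?_]
    · simp [oddPart, hch, f]
    · have key : ∀ {r n c e : ℕ}, r.Prime → r ≠ 2 → Datum G r n c e → (r ∣ m ↔ c % 2 = 0) := by
        intro r n c e hr hr2 h
        rw [← dvd_cent_iff ht hclass hr hr2 h, hm]
        refine ⟨fun h' => h'.mul_left 8, fun h' => (hr.dvd_mul.1 h').resolve_left fun h8 => hr2 ?_⟩
        exact (Nat.prime_dvd_prime_iff_eq hr Nat.prime_two).1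
          (hr.dvd_of_dvd_pow (show r ∣ 2 ^ 3 from h8))
      simp only [List.mem_cons, List.not_mem_nil, or_false, forall_eq_or_imp, forall_eq, f]
      norm_num
      exact ⟨key (by norm_num) (by norm_num) hF, key (by norm_num) (by norm_num) hD,
        key (by norm_num) (by norm_num) hC, key (by norm_num) (by norm_num) hB,
        key (by norm_num) (by norm_num) hA⟩
  have hpairs : ch.all (pairsOK (oddPart ch)) = true := by
    rw [List.all_eq_true, ← hm']
    intro x hx
    obtain ⟨hp, hp2, e, hX⟩ := hdat x hx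
    simp only [pairsOK, Bool.or_eq_true, bne_iff_ne, ne_eq, List.any_eq_true, List.mem_range,
      Bool.and_eq_true, beq_iff_eq]
    refine (em (x.2.2 % 2 = 0)).symm.imp id fun hc => ?_
    obtain ⟨P, -⟩ := hX.norm
    obtain ⟨h1, h2, h3, h4⟩ := pairs hG hclass ht hm hp hp2 hX (Nat.dvd_of_mod_eq_zero hc) P
    exact ⟨_, Nat.lt_succ_of_le h2, ⟨h1, h3⟩, h4⟩
  refine ⟨m, hm, ?_⟩
  have hres := cent_search (hmem (by norm_num) (by norm_num) hA) (hmem (by norm_num) (by norm_num) hB)
    (hmem (by norm_num) (by norm_num) hC) (hmem (by norm_num) (by norm_num) hD)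
    (hmem (by norm_num) (by norm_num) hF)
    (hcons _ (by simp [hch]) _ (by simp [hch]))
    (hcons _ (by simp [hch]) _ (by simp [hch]))
    (hcons _ (by simp [hch]) _ (by simp [hch]))
    (hcons _ (by simp [hch]) _ (by simp [hch])) hnorm hpairs hbound
  rw [← hch] at hres
  rcases hres with h | h
  · exact Or.inl ⟨by rw [hm', h]; rfl, fun x hx => (hdat x (h ▸ hx)).2.2⟩
  · exact Or.inr ⟨by rw [hm', h]; rfl, fun x hx => (hdat x (h ▸ hx)).2.2⟩

omit [IsSimpleGroup G] in
/-- The configuration with a centraliser of order 1320 is impossible. -/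
theorem not_confA (hG : Nat.card G = 175560) {t : G} (ht : orderOf t = 2)
    (hclass : ∀ u : G, orderOf u = 2 → IsConj t u)
    (hm : Nat.card ↥(centralizer ({t} : Set G)) = 8 * 165)
    (h : ∀ x ∈ confA, ∃ e, Datum G x.1 x.2.1 x.2.2 e) : False := by
  obtain ⟨e3, h3⟩ : ∃ e, Datum G 3 2926 10 e := h (3, 2926, 10) (by simp [confA])
  obtain ⟨e5, h5⟩ : ∃ e, Datum G 5 2926 6 e := h (5, 2926, 6) (by simp [confA])
  have : Fact (Nat.Prime 3) := ⟨Nat.prime_three⟩
  have : Fact (Nat.Prime 5) := ⟨Nat.prime_five⟩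
  have : Fact (Nat.Prime 2) := ⟨Nat.prime_two⟩
  obtain ⟨P, -⟩ := h3.norm
  set C := centralizer ((P : Subgroup G) : Set G) with hC
  have hC30 : Nat.card C = 30 := by rw [hC, h3.cent P]
  obtain ⟨h1, h2, h4, h6⟩ :=
    pairs hG hclass ht hm Nat.prime_three (by norm_num) h3 (by norm_num) P
  have hi1 : invCount (P : Subgroup G) = 1 := by
    obtain ⟨T⟩ := (inferInstance : Nonempty (Sylow 2 C))
    have hT : Nat.card (T : Subgroup C) = 2 :=
      (card_sylow_eq (a := 1) (m := 15) (by rw [hC30]; norm_num) (by norm_num) T).trans (pow_one 2)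
    have hn : invCount (P : Subgroup G) = Nat.card (Sylow 2 C) := by
      rw [invCount_eq_card, ← hC, card_orderOf_eq_prime T hT,
        show (2 : ℕ) - 1 = 1 from rfl, mul_one]
    have hmem := card_sylow_mem (G := C) (p := 2) (a := 1) (m := 15)
      (by rw [hC30]; norm_num) (by norm_num)
    rw [← hn, show (Nat.divisors 15).filter (fun d => d % 2 = 1) = {1, 3, 5, 15} by decide] at hmem
    simp only [Finset.mem_insert, Finset.mem_singleton] at hmem
    omega
  rw [invCount, Nat.card_eq_one_iff_unique] at hi1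
  obtain ⟨hsub, ⟨⟨u, hu, huC⟩⟩⟩ := hi1
  have hcen : ∀ y ∈ C, y * u = u * y := by
    intro y hy
    have hmem : orderOf (y * u * y⁻¹) = 2 ∧ y * u * y⁻¹ ∈ C :=
      ⟨(CfsgLib.Involutions.orderOf_conj y u).trans hu, mul_mem (mul_mem hy huC) (inv_mem hy)⟩
    exact mul_inv_eq_iff_eq_mul.1 (congrArg Subtype.val (hsub.elim ⟨_, hmem⟩ ⟨u, hu, huC⟩) :)
  obtain ⟨⟨y, hyC⟩, hyo⟩ := exists_prime_orderOf_dvd_card' (G := C) 5 (by rw [hC30]; norm_num)
  rw [Subgroup.orderOf_mk] at hyo
  obtain ⟨R, hR⟩ := (IsPGroup.of_card (n := 1) (by rw [Nat.card_zpowers, hyo, pow_one]) :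
    IsPGroup 5 ↥(zpowers y)).exists_le_sylow
  have hRe : zpowers y = (R : Subgroup G) :=
    eq_of_le_of_card_ge hR (by rw [h5.sylow, Nat.card_zpowers, hyo])
  set D := centralizer ((R : Subgroup G) : Set G) with hD
  have hcomm : ∀ x : G, Commute y x → x ∈ D := by
    intro x hx
    rw [hD, ← hRe, mem_centralizer_iff]
    intro z hz
    obtain ⟨k, rfl⟩ := mem_zpowers_iff.1 hz
    exact (hx.zpow_left k).eq
  have hu2 : 2 ∣ Nat.card ↥(C ⊓ D) :=
    hu ▸ Subgroup.orderOf_dvd_natCard _ (mem_inf.2 ⟨huC, hcomm u (hcen y hyC)⟩)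
  have hy5 : 5 ∣ Nat.card ↥(C ⊓ D) :=
    hyo ▸ Subgroup.orderOf_dvd_natCard _ (mem_inf.2 ⟨hyC, hcomm y (Commute.refl y)⟩)
  have hP3 : 3 ∣ Nat.card ↥(C ⊓ D) := by
    rw [← h3.sylow P]
    refine card_dvd_of_le fun z hz => mem_inf.2 ⟨?_, hcomm z ?_⟩
    · have : IsCyclic (P : Subgroup G) := isCyclic_of_prime_card (h3.sylow P)
      refine mem_centralizer_iff.2 fun w hw => ?_
      exact congrArg Subtype.val
        (IsCyclic.commGroup.mul_comm (⟨w, hw⟩ : (P : Subgroup G)) ⟨z, hz⟩)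
    · exact (mem_centralizer_iff.1 hyC z hz).symm
  have h30 : 30 ∣ Nat.card ↥(C ⊓ D) :=
    (by norm_num : Nat.Coprime (2 * 3) 5).mul_dvd_of_dvd_of_dvd
      ((by norm_num : Nat.Coprime 2 3).mul_dvd_of_dvd_of_dvd hu2 hP3) hy5
  have hle : 30 ≤ Nat.card ↥(C ⊓ D) := Nat.le_of_dvd Nat.card_pos h30
  have hCD : C = D :=
    (eq_of_le_of_card_ge inf_le_left (hC30.le.trans hle)).symm.trans
      (eq_of_le_of_card_ge inf_le_right ((h5.cent R).le.trans hle))
  obtain ⟨g1, g2, g3, g4⟩ :=
    pairs hG hclass ht hm Nat.prime_five (by norm_num) h5 (by norm_num) R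
  have heq : invCount (R : Subgroup G) = 1 := by
    rw [invCount, ← hD, ← hCD, Nat.card_eq_one_iff_unique]
    exact ⟨hsub, ⟨⟨u, hu, huC⟩⟩⟩
  rw [heq] at g4
  norm_num at g4

/-- A centraliser of order 120 whose Sylow 5-subgroups are not normal is `2 × A₅`. -/
theorem centralizer_equiv (hG : Nat.card G = 175560) {t : G} (ht : orderOf t = 2)
    (hclass : ∀ u : G, orderOf u = 2 → IsConj t u)
    (hm : Nat.card ↥(centralizer ({t} : Set G)) = 8 * 15)
    (h : ∀ x ∈ confB, ∃ e, Datum G x.1 x.2.1 x.2.2 e) :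
    Nonempty (↥(centralizer ({t} : Set G)) ≃*
      Multiplicative (ZMod 2) × alternatingGroup (Fin 5)) := by
  classical
  obtain ⟨e5, h5⟩ : ∃ e, Datum G 5 2926 6 e := h (5, 2926, 6) (by simp [confB])
  have : Fact (Nat.Prime 5) := ⟨Nat.prime_five⟩
  have : Fact (Nat.Prime 2) := ⟨Nat.prime_two⟩
  have he5 : e5 = 2 := by
    have := h5.eOf_eq hG
    norm_num [eOf] at this
    omega
  set C := centralizer ({t} : Set G) with hC
  have hC120 : Nat.card C = 120 := by rw [hC, hm]
  let t' : C := ⟨t, mem_centralizer_singleton.2 rfl⟩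
  have ht' : orderOf t' = 2 := by rw [Subgroup.orderOf_mk, ht]
  have hcen : ∀ x : C, x * t' = t' * x := fun x =>
    Subtype.ext (mem_centralizer_singleton.1 x.2)
  set Z := zpowers t' with hZ
  have hZc : Z ≤ center C := zpowers_le.2 (mem_center_iff.2 hcen)
  have : Z.Normal := ⟨fun z hz g => by
    rwa [(mem_center_iff.1 (hZc hz) g), mul_inv_cancel_right]⟩
  have hZmem : ∀ z ∈ Z, z = 1 ∨ z = t' := by
    intro z hz
    obtain ⟨k, rfl⟩ := mem_zpowers_iff.1 hz
    rcases Int.even_or_odd' k with ⟨j, rfl | rfl⟩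
    · left; rw [zpow_mul, zpow_two, ← pow_two, ← ht', pow_orderOf_eq_one, one_zpow]
    · right; rw [zpow_add_one, zpow_mul, zpow_two, ← pow_two, ← ht', pow_orderOf_eq_one, one_zpow,
        one_mul]
  have hQ60 : Nat.card (C ⧸ Z) = 60 := by
    have h1 := card_eq_card_quotient_mul_card_subgroup Z
    rw [hC120, show Nat.card Z = 2 from (Nat.card_zpowers t').trans ht'] at h1
    omega
  -- a normal subgroup of order 5 would give an element normalised by all of `C`
  have h5n : ∀ R : Subgroup (C ⧸ Z), Nat.card R = 5 → ¬ R.Normal := by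
    intro R hR hRn
    obtain ⟨⟨r, hr⟩, hro⟩ := exists_prime_orderOf_dvd_card' (G := R) 5 (by rw [hR])
    obtain ⟨x, hx⟩ := exists_prime_orderOf_dvd_card' (G := R.comap (QuotientGroup.mk' Z)) 5 (by
      have h1 : Nat.card (R.comap (QuotientGroup.mk' Z)) * (R.comap (QuotientGroup.mk' Z)).index =
          120 := by rw [card_mul_index, hC120]
      rw [index_comap_of_surjective _ (QuotientGroup.mk'_surjective Z)] at h1
      have h2 : Nat.card R * R.index = 60 := by rw [card_mul_index, hQ60]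
      rw [hR] at h2
      have h3 : R.index = 12 := by omega
      rw [h3] at h1
      omega)
    have hy : orderOf (x : C) = 5 := (Subgroup.orderOf_coe _).trans hx
    set y := (x : C) with hydef
    have hyR : (y : C ⧸ Z) ∈ R := x.2
    have hy1 : (y : C ⧸ Z) ≠ 1 := by
      intro h1
      rcases hZmem y ((QuotientGroup.eq_one_iff y).1 h1) with h2 | h2
      · rw [h2, orderOf_one] at hy; omega
      · rw [h2, ht'] at hy; omega
    have hle : ∀ g : C, g * y * g⁻¹ ∈ zpowers y := by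
      intro g
      have hmem : ((g * y * g⁻¹ : C) : C ⧸ Z) ∈ R := hRn.conj_mem _ hyR (g : C ⧸ Z)
      obtain ⟨j, hj⟩ := mem_zpowers_iff.1 (mem_zpowers_of_prime_card (p := 5) hR
        (g := (⟨(y : C ⧸ Z), hyR⟩ : R)) (g' := ⟨_, hmem⟩) fun e => hy1 (congrArg Subtype.val e))
      have hj' : ((y ^ j : C) : C ⧸ Z) = ((g * y * g⁻¹ : C) : C ⧸ Z) := congrArg Subtype.val hj
      have hz := hZmem _ (QuotientGroup.eq.1 hj')
      rcases hz with hz | hz
      · exact mem_zpowers_iff.2 ⟨j, (inv_mul_eq_one.1 hz)⟩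
      · exfalso
        rw [inv_mul_eq_iff_eq_mul] at hz
        have h1 : (g * y * g⁻¹) ^ 5 = 1 := by
          rw [show g * y * g⁻¹ = MulAut.conj g y from rfl, ← map_pow, ← hy, pow_orderOf_eq_one,
            map_one]
        rw [hz, (show Commute (y ^ j) t' from hcen _).mul_pow, ← zpow_natCast, ← zpow_mul, mul_comm,
          zpow_mul, zpow_natCast, ← hy, pow_orderOf_eq_one, one_zpow, one_mul, hy,
          show t' ^ 5 = (t' ^ 2) ^ 2 * t' by group, ← ht', pow_orderOf_eq_one, one_pow,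
          one_mul] at h1
        rw [h1, orderOf_one] at ht'
        omega
    obtain ⟨P, hP⟩ := (IsPGroup.of_card (n := 1)
      (by rw [Nat.card_zpowers, Subgroup.orderOf_coe, hy, pow_one]) :
      IsPGroup 5 ↥(zpowers (y : G))).exists_le_sylow
    have hPe : zpowers (y : G) = (P : Subgroup G) :=
      eq_of_le_of_card_ge hP (by rw [h5.sylow, Nat.card_zpowers, Subgroup.orderOf_coe, hy])
    have hCN : C ≤ normalizer ((P : Subgroup G) : Set G) := by
      intro g hg
      have hmap : ∀ g ∈ C, ∀ z ∈ zpowers (y : G), g * z * g⁻¹ ∈ zpowers (y : G) := by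
        intro g hg z hz
        obtain ⟨i, hi⟩ := mem_zpowers_iff.1 (hle ⟨g, hg⟩)
        obtain ⟨k, rfl⟩ := mem_zpowers_iff.1 hz
        refine mem_zpowers_iff.2 ⟨i * k, ?_⟩
        rw [zpow_mul, ← conj_zpow, show (y : G) ^ i = g * y * g⁻¹ from congrArg Subtype.val hi]
      rw [← hPe, mem_normalizer_iff]
      refine fun z => ⟨hmap g hg z, fun hz => ?_⟩
      simpa [mul_assoc] using hmap g⁻¹ (inv_mem hg) _ hz
    have := card_dvd_of_le hCN
    rw [hC120, h5.card_normalizer P, he5] at this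
    norm_num at this
  obtain ⟨e⟩ := CfsgLib.SL2.Dickson.Sixty.nonempty_mulEquiv_alternating_five hQ60 h5n
  -- a second involution, from the Z*-theorem
  obtain ⟨S, hS⟩ := exists_sylow_two_le_centralizer (hG ▸ (by norm_num)) hclass
  obtain ⟨v, hv, hvt⟩ : ∃ v : C, orderOf v = 2 ∧ v ≠ t' := by
    by_contra hcon
    push Not at hcon
    have htC := CfsgLib.Involutions.mem_center_of_isolated S ht (fun g hg => by
      exact congrArg Subtype.val (hcon ⟨g * t * g⁻¹, hS hg⟩
        (by rw [Subgroup.orderOf_mk, CfsgLib.Involutions.orderOf_conj, ht]))) (by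
      rcases (inferInstance : (Cfsg.oddCore G).Normal).eq_bot_or_eq_top with h0 | h0
      · exact h0
      · exfalso
        have := CfsgLib.Cores.odd_card_oddCore (G := G)
        rw [h0, card_top, hG] at this
        exact absurd this (by decide))
    rcases (inferInstance : (center G).Normal).eq_bot_or_eq_top with h0 | h0
    · rw [h0, mem_bot] at htC
      exact CfsgLib.Involutions.ne_one ht htC
    · exact not_isMulCommutative_of_card_eq hG (by norm_num)
        (IsMulCommutative.of_comm fun a b => (mem_center_iff.1 (h0 ▸ mem_top a) b).symm)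
  obtain ⟨T, hT⟩ : ∃ T : Sylow 2 C, (T : Subgroup C) = (S : Subgroup G).subgroupOf C :=
    ⟨S.subtype hS, rfl⟩
  have hT8 : Nat.card (T : Subgroup C) = 8 :=
    card_sylow_eq (a := 3) (m := 15) (by rw [hC120]; norm_num) (by norm_num) T
  have ha5 : ∀ x : alternatingGroup (Fin 5), x ^ 8 = 1 → x * x = 1 := by decide +kernel
  have hexp : ∀ s ∈ (T : Subgroup C), s * s = 1 := by
    intro s hs
    have ht2 : t' * t' = 1 := by rw [← pow_two, ← ht']; exact pow_orderOf_eq_one t'
    have hv2 : v * v = 1 := by rw [← pow_two, ← hv]; exact pow_orderOf_eq_one v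
    have h8 : s ^ 8 = 1 := orderOf_dvd_iff_pow_eq_one.1 (hT8 ▸ Subgroup.orderOf_dvd_natCard _ hs)
    by_cases h1 : e (s : C ⧸ Z) = 1
    · rw [map_eq_one_iff e e.injective, QuotientGroup.eq_one_iff] at h1
      rcases hZmem s h1 with rfl | rfl
      · exact one_mul 1
      · exact ht2
    have hv1 : e (v : C ⧸ Z) ≠ 1 := by
      rw [Ne, map_eq_one_iff e e.injective, QuotientGroup.eq_one_iff]
      intro h2
      rcases hZmem v h2 with h3 | h3
      · exact CfsgLib.Involutions.ne_one hv h3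
      · exact hvt h3
    have hs2 : e (s : C ⧸ Z) * e (s : C ⧸ Z) = 1 :=
      ha5 _ (by rw [← map_pow, ← QuotientGroup.mk_pow, h8, QuotientGroup.mk_one, map_one])
    have hvv : e (v : C ⧸ Z) * e (v : C ⧸ Z) = 1 := by
      rw [← map_mul, ← QuotientGroup.mk_mul, hv2, QuotientGroup.mk_one, map_one]
    obtain ⟨a, ha⟩ := CfsgLib.InvChar.HallJanko.alt_invol_conj _ _ hv1 hvv h1 hs2
    obtain ⟨q, rfl⟩ := e.surjective a
    obtain ⟨g, rfl⟩ := QuotientGroup.mk_surjective q
    rw [← map_inv, ← map_mul, ← map_mul, e.apply_eq_iff_eq, ← QuotientGroup.mk_inv,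
      ← QuotientGroup.mk_mul, ← QuotientGroup.mk_mul] at ha
    have hc2 : g * v * g⁻¹ * (g * v * g⁻¹) = 1 := by
      rw [show g * v * g⁻¹ * (g * v * g⁻¹) = g * (v * v) * g⁻¹ by group, hv2, mul_one,
        mul_inv_cancel]
    rcases hZmem _ (QuotientGroup.eq.1 ha) with h2 | h2
    · rw [← inv_mul_eq_one.1 h2]; exact hc2
    · rw [inv_mul_eq_iff_eq_mul] at h2
      rw [h2, (show Commute t' _ from (hcen _).symm).mul_mul_mul_comm, hc2, ht2, mul_one]
  have hTcomm : IsMulCommutative (T : Subgroup C) := ⟨⟨fun a b => by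
    have hi : ∀ c : (T : Subgroup C), c⁻¹ = c := fun c =>
      inv_eq_of_mul_eq_one_right (Subtype.ext (hexp c c.2))
    calc a * b = (a * b)⁻¹ := (hi _).symm
      _ = b⁻¹ * a⁻¹ := mul_inv_rev a b
      _ = b * a := by rw [hi, hi]⟩⟩
  let _ : CommGroup (T : Subgroup C) :=
    { (inferInstance : Group (T : Subgroup C)) with mul_comm := fun a b => hTcomm.1.1 a b }
  -- the transfer into an abelian Sylow 2-subgroup separates the centre
  let f : C →* (T : Subgroup C) := MonoidHom.transfer (MonoidHom.id (T : Subgroup C))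
  have hidx : (T : Subgroup C).index = 15 := by
    have h1 := card_mul_index (T : Subgroup C)
    rw [hT8, hC120] at h1
    omega
  have hkey : ∀ (k : ℕ) (g₀ : C), g₀⁻¹ * t' ^ k * g₀ ∈ (T : Subgroup C) →
      g₀⁻¹ * t' ^ k * g₀ = t' ^ k := fun k g₀ _ => by
    rw [mul_assoc, ((show Commute g₀ t' from hcen g₀).pow_right k).symm.eq, inv_mul_cancel_left]
  have hft : (f t' : C) = t' := by
    rw [show f t' = _ from MonoidHom.transfer_eq_pow _ t' hkey]
    show t' ^ (T : Subgroup C).index = t'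
    rw [hidx, show t' ^ 15 = (t' ^ 2) ^ 7 * t' by group, ← ht', pow_orderOf_eq_one, one_pow, one_mul]
  have hft1 : f t' ≠ 1 := fun h1 => by
    rw [h1] at hft
    exact CfsgLib.Involutions.ne_one ht' hft.symm
  -- `C` is generated by `t` and its commutator subgroup
  have hA5 : commutator (alternatingGroup (Fin 5)) = ⊤ := by
    rcases (inferInstance : (commutator (alternatingGroup (Fin 5))).Normal).eq_bot_or_eq_top with
      h0 | h0
    · exact absurd ((commutator_eq_bot_iff_center_eq_top _).1 h0) fun hc => by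
        have := CfsgLib.J1Order.not_comm_A5
        exact this ((mem_center_iff.1 (hc ▸ mem_top CfsgLib.J1Order.aa) CfsgLib.J1Order.cc))
    · exact h0
  have hgen : ∀ x : C, ∃ k ∈ commutator C, x = k ∨ x = k * t' := by
    intro x
    have hmap : (commutator C).map (e.toMonoidHom.comp (QuotientGroup.mk' Z)) = ⊤ := by
      rw [map_commutator_eq, MonoidHom.range_eq_top.2
        (e.surjective.comp (QuotientGroup.mk'_surjective Z))]
      exact hA5
    obtain ⟨k, hk, hke⟩ :=
      (hmap ▸ mem_top (e (x : C ⧸ Z)) : e (x : C ⧸ Z) ∈ (commutator C).map _)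
    refine ⟨k, hk, ?_⟩
    have hke' : (k : C ⧸ Z) = (x : C ⧸ Z) := e.injective hke
    rcases hZmem _ (QuotientGroup.eq.1 hke') with h2 | h2
    · exact Or.inl (inv_mul_eq_one.1 h2).symm
    · exact Or.inr (inv_mul_eq_iff_eq_mul.1 h2)
  have hker : commutator C ≤ f.ker := Abelianization.commutator_subset_ker f
  have hrange : f.range = zpowers (f t') := by
    refine le_antisymm ?_ (zpowers_le.2 ⟨t', rfl⟩)
    rintro _ ⟨x, rfl⟩
    obtain ⟨k, hk, rfl | rfl⟩ := hgen x
    · rw [MonoidHom.mem_ker.1 (hker hk)]; exact one_mem _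
    · rw [map_mul, MonoidHom.mem_ker.1 (hker hk), one_mul]; exact mem_zpowers _
  have hr2 : Nat.card f.range = 2 := by
    rw [hrange, Nat.card_zpowers]
    refine orderOf_eq_prime ?_ hft1
    rw [← map_pow, show t' ^ 2 = 1 from orderOf_dvd_iff_pow_eq_one.1 ht'.dvd, map_one]
  let ψ : C →* f.range × (C ⧸ Z) := f.rangeRestrict.prod (QuotientGroup.mk' Z)
  have hψ : Function.Bijective ψ := by
    rw [Nat.bijective_iff_injective_and_card, Nat.card_prod, hr2, hQ60, hC120]
    refine ⟨(injective_iff_map_eq_one ψ).2 fun x hx => ?_, by norm_num⟩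
    rcases hZmem x ((QuotientGroup.eq_one_iff x).1 (congrArg Prod.snd hx)) with h2 | h2
    · exact h2
    · exact absurd (congrArg Subtype.val (congrArg Prod.fst hx)) (h2 ▸ hft1)
  have : Fact (Nat.Prime 2) := ⟨Nat.prime_two⟩
  exact ⟨(MulEquiv.ofBijective ψ hψ).trans (MulEquiv.prodCongr
    (mulEquivOfPrimeCardEq (p := 2) hr2 (by simp)) e)⟩

/-- A simple group of order 175560 has an involution with centraliser `2 × A₅`. -/
theorem exists_centralizer_equiv (hG : Nat.card G = 175560) :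
    ∃ t : G, orderOf t = 2 ∧ Nonempty (↥(centralizer ({t} : Set G)) ≃*
      Multiplicative (ZMod 2) × alternatingGroup (Fin 5)) := by
  have : Fact (Nat.Prime 2) := ⟨Nat.prime_two⟩
  obtain ⟨S⟩ := (inferInstance : Nonempty (Sylow 2 G))
  have hone := one_class_of_order_eight (not_isMulCommutative_of_card_eq hG (by norm_num))
    (m := 21945) (by decide) (by rw [hG]) S
  obtain ⟨t, ht⟩ := exists_prime_orderOf_dvd_card' (G := G) 2 (by rw [hG]; norm_num)
  have hclass : ∀ u : G, orderOf u = 2 → IsConj t u := fun u hu => hone t u ht hu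
  obtain ⟨m, hm, ⟨rfl, h⟩ | ⟨rfl, h⟩⟩ := conf hG ht hclass
  · exact (not_confA hG ht hclass hm h).elim
  · exact ⟨t, ht, centralizer_equiv hG ht hclass hm h⟩

end CfsgLib.SmallGroups.Order175560
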