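import Mathlib

/-!
Finite search used to exclude simple groups of order dividing `175560`.

A choice is a triple `(r, n, c)`: a prime, its Sylow number and `|C(P)| / r`.
-/

set_option autoImplicit false

namespace CfsgLib.SmallGroups.Order175560

/-- The divisors of `p * m` for a prime `p`, from those of `m`. -/
def extend (p : ℕ) (L : List ℕ) : List ℕ := L ++ L.map (p * ·)

/-- All the divisors of `175560`. -/
def divList : List ℕ := extend 19 (extend 11 (extend 7 (extend 5 (extend 3 [1, 2, 4, 8]))))

theorem mem_extend {p m : ℕ} (hp : p.Prime) {L : List ℕ} (hL : ∀ e, e ∣ m → e ∈ L) {d : ℕ}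
    (hd : d ∣ p * m) : d ∈ extend p L := by
  obtain ⟨k₁, k₂, h₁, h₂, rfl⟩ := Nat.dvd_mul.mp hd
  rcases (Nat.dvd_prime hp).mp h₁ with h | h <;> rw [h]
  · rw [one_mul]; exact List.mem_append_left _ (hL _ h₂)
  · exact List.mem_append_right _ (List.mem_map.mpr ⟨k₂, hL _ h₂, rfl⟩)

theorem mem_divList {d : ℕ} (hd : d ∣ 175560) : d ∈ divList := by
  have h8 : ∀ e, e ∣ 8 → e ∈ [1, 2, 4, 8] := fun e he => by
    obtain ⟨i, hi, rfl⟩ := (Nat.dvd_prime_pow Nat.prime_two).mp (show e ∣ 2 ^ 3 from he)
    interval_cases i <;> simp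
  exact mem_extend (m := 9240) (by norm_num)
    (fun e he => mem_extend (m := 840) (by norm_num)
      (fun e he => mem_extend (m := 120) (by norm_num)
        (fun e he => mem_extend (m := 24) (by norm_num)
          (fun e he => mem_extend (m := 8) (by norm_num) h8 he) he) he) he) hd

/-- Conditions special to the prime 19. -/
def special (r n c e : ℕ) : Bool :=
  if r = 19 then (if n = 20 then c == 1 && e % 2 == 1 else if n = 77 then c % 5 != 0 else true)
  else true

/-- The choices allowed for the prime `r` in a group of order `d`. -/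
def opts (d r : ℕ) : List (ℕ × ℕ × ℕ) :=
  (divList.filter fun n => decide (1 < n) && (n % r == 1) && ((d / r) % n == 0)).flatMap fun n =>
    ((List.range r).filter fun e => decide (1 < e) && ((r - 1) % e == 0) && ((d / r / n) % e == 0) &&
      special r n (d / r / n / e) e).map fun e => (r, n, d / r / n / e)

/-- `s ∣ c_r` if and only if `r ∣ c_s`. -/
def consistent (x : ℕ × ℕ × ℕ) (ch : List (ℕ × ℕ × ℕ)) : Bool :=
  ch.all fun y => (x.2.2 % y.1 == 0) == (y.2.2 % x.1 == 0)

/-- No two of the primes in `S` divide the order of a common element. -/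
def unlinked (S : List (ℕ × ℕ × ℕ)) : Bool :=
  S.all fun x => S.all fun y => x.1 == y.1 || x.2.2 % y.1 != 0

/-- The number of elements counted by a choice. -/
def term (S : List (ℕ × ℕ × ℕ)) (x : ℕ × ℕ × ℕ) : ℕ :=
  if (S.map fun y => y.1).elem x.1 then x.2.1 * ((x.1 - 1) * x.2.2) else x.2.1 * (x.1 - 1)

/-- The elements counted fit into a group of order `d`. -/
def bound (d : ℕ) (ch : List (ℕ × ℕ × ℕ)) : Bool :=
  ch.sublists.all fun S => !unlinked S || decide ((ch.map (term S)).sum + 1 ≤ d)

/-- Whether some system of choices survives. -/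
def go (d : ℕ) : List ℕ → List (ℕ × ℕ × ℕ) → Bool
  | [], _ => true
  | r :: rs, ch =>
    if d % r = 0 then
      (opts d r).any fun o => consistent o ch && bound d (o :: ch) && go d rs (o :: ch)
    else go d rs ch

theorem search_eq_false : divList.all (fun d =>
    d % 19 != 0 || d == 175560 || (d % 2 == 0 && d % 4 != 0) || !go d [19, 11, 7, 5, 3] []) = true := by
  decide +kernel

end CfsgLib.SmallGroups.Order175560
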