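import Cfsg.Agent.Lib.SmallGroups.SylowNumberReduction
import Cfsg.Agent.Lib.SmallGroups.DegreeKills
import Cfsg.Agent.Lib.SmallGroups.Counting

/-!
There is no simple group of order 459648.
-/

set_option autoImplicit false

universe u

namespace CfsgLib.SmallGroups.Order459648

open Subgroup MulAction
open scoped Pointwise

theorem card_sylow_ne {X : Type u} [Group X] [Finite X] (h : Nat.card X ∣ 3648 ∨ Nat.card X ∣ 5472) :
    Nat.card (Sylow 19 X) ≠ 96 := by
  induction hn : Nat.card X using Nat.strong_induction_on generalizing X with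
  | _ n ih =>
    intro h96
    have : Fact (Nat.Prime 19) := ⟨by norm_num⟩
    have : Fact (Nat.Prime 2) := ⟨Nat.prime_two⟩
    have hmin : ∀ (H : Type u) [Group H] [Finite H], Nat.card H ∣ Nat.card X → Nat.card H < Nat.card X →
        Nat.card (Sylow 19 H) ≠ 96 := fun H _ _ hd hlt =>
      ih (Nat.card H) (hn ▸ hlt) (h.imp hd.trans hd.trans) rfl
    have hs : IsSimpleGroup X := SylowNumber.isSimpleGroup (q := 2) hmin h96 (by norm_num)
      (fun d hd hd1 => by
        have hmem : d ∈ (Nat.divisors 96).filter (fun k => k % 19 = 1) :=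
          Finset.mem_filter.mpr ⟨Nat.mem_divisors.mpr ⟨hd, by norm_num⟩, hd1⟩
        rw [show (Nat.divisors 96).filter (fun k => k % 19 = 1) = {1, 96} by decide +kernel] at hmem
        simpa using hmem)
      (by norm_num) (by norm_num)
      (fun j hj hj1 => by
        have : j < 7 := by
          by_contra h7
          have := Nat.pow_le_pow_right (show 0 < 2 by norm_num) (show 7 ≤ j by omega)
          omega
        interval_cases j <;> omega)
    have hG := SylowNumber.not_isMulCommutative h96 (by norm_num : 1 < 96)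
    obtain ⟨P⟩ := (inferInstance : Nonempty (Sylow 19 X))
    have hd96 : 96 ∣ Nat.card X := h96 ▸ P.card_eq_index_normalizer ▸ index_dvd_card _
    have h19 : 19 ∣ Nat.card X := by
      by_contra h19
      have hbot : (P : Subgroup X) = ⊥ := by
        have hc := P.card_eq_multiplicity
        rw [Nat.factorization_eq_zero_of_not_dvd h19, pow_zero] at hc
        exact eq_bot_of_card_eq _ hc
      have h1 : Nat.card (Sylow 19 X) = 1 :=
        P.card_eq_index_normalizer.trans (index_eq_one.mpr (normalizer_eq_top_iff.mpr (hbot ▸ inferInstance)))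
      omega
    obtain ⟨k, hk⟩ : 1824 ∣ Nat.card X := by
      rw [show 1824 = 96 * 19 by norm_num]
      exact Nat.Coprime.mul_dvd_of_dvd_of_dvd (by norm_num) hd96 h19
    have hcases : k = 1 ∨ k = 2 ∨ k = 3 := by
      rcases h with h | h <;> rw [hk] at h
      · have := Nat.le_of_dvd (by norm_num) ((Nat.mul_dvd_mul_iff_left (show 0 < 1824 by norm_num)).mp
          (show 1824 * k ∣ 1824 * 2 from h))
        have : k ≠ 0 := fun h0 => by rw [h0, mul_zero] at hk; exact Nat.card_pos.ne' hk
        omega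
      · have := Nat.le_of_dvd (by norm_num) ((Nat.mul_dvd_mul_iff_left (show 0 < 1824 by norm_num)).mp
          (show 1824 * k ∣ 1824 * 3 from h))
        have : k ≠ 0 := fun h0 => by rw [h0, mul_zero] at hk; exact Nat.card_pos.ne' hk
        omega
    rcases hcases with rfl | rfl | rfl
    · obtain ⟨c, e, -, -, he, -, hprod⟩ := sylow_prime_data hG (p := 19) (m := 96) (by rw [hk]) (by norm_num) P
      rw [h96] at hprod
      have := Nat.eq_one_of_mul_eq_one_left (show c * e = 1 by omega)
      omega
    · exact SelfCentral.card_ne_3648 hk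
    · exact SelfCentral.card_ne_5472 hk

/-- The Sylow number of a quotient by a central subgroup. -/
theorem card_sylow_quotient {C : Type u} [Group C] [Finite C] {p : ℕ} [Fact p.Prime] (K : Subgroup C) [K.Normal]
    (hK : K ≤ center C) : Nat.card (Sylow p (C ⧸ K)) = Nat.card (Sylow p C) := by
  refine (Nat.card_eq_of_bijective _ ⟨fun P R hPR => ?_,
    Sylow.mapSurjective_surjective (QuotientGroup.mk'_surjective K) p⟩).symm
  have h := congrArg (fun S : Sylow p (C ⧸ K) => (S : Subgroup (C ⧸ K)).comap (QuotientGroup.mk' K)) hPR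
  simp only [Sylow.coe_mapSurjective, comap_map_eq, QuotientGroup.ker_mk'] at h
  have hle : (R : Subgroup C) ≤ normalizer ((P : Subgroup C) : Set C) :=
    (le_sup_left.trans (ge_of_eq h)).trans (sup_le le_normalizer fun g hg =>
      centralizer_le_normalizer _ (mem_centralizer_iff.mpr fun y _ => mem_center_iff.mp (hK hg) y))
  refine (sylow_eq_of_le fun g hg => ?_).symm
  exact ((IsPGroup.inf_normalizer_sylow R.isPGroup' P).le ⟨hg, hle hg⟩).2

variable {G : Type u} [Group G] [Finite G] [IsSimpleGroup G]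

section
variable (h : Nat.card G = 459648)
include h

theorem noncomm : ¬ IsMulCommutative G := not_isMulCommutative_of_card_eq h (by norm_num)

theorem card_sylow_nineteen [Fact (Nat.Prime 19)] : Nat.card (Sylow 19 G) = 1008 := by
  have hG := noncomm h
  have hn := card_sylow_mem (p := 19) (a := 1) (m := 24192) (by rw [h]; norm_num) (by norm_num)
  have hmem : Nat.card (Sylow 19 G) ∈ ({1, 96, 1008} : Finset ℕ) := by
    obtain ⟨hd, hmod⟩ := Finset.mem_filter.mp hn
    have hd' := (Nat.mem_divisors.mp hd).1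
    obtain ⟨j, hj⟩ : ∃ j, Nat.card (Sylow 19 G) = 19 * j + 1 := ⟨_, by
      have := Nat.div_add_mod (Nat.card (Sylow 19 G)) 19; rw [hmod] at this; exact this.symm⟩
    rw [hj] at hd' ⊢
    have := Nat.le_of_dvd (by norm_num) hd'
    have hall : ∀ i ∈ Finset.range 1274, 24192 % (19 * i + 1) = 0 → 19 * i + 1 ∈ ({1, 96, 1008} : Finset ℕ) := by
      decide +kernel
    exact hall j (Finset.mem_range.mpr (by omega)) (Nat.mod_eq_zero_of_dvd hd')
  simp only [Finset.mem_insert, Finset.mem_singleton] at hmem
  have h1 := one_lt_card_sylow hG (p := 19) (h ▸ by norm_num)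
  rcases hmem with hm | hm | hm
  · omega
  · exfalso
    obtain ⟨P⟩ := (inferInstance : Nonempty (Sylow 19 G))
    obtain ⟨c, e, hC, -, -, hed, hprod⟩ := sylow_prime_data hG (p := 19) (m := 24192) (by rw [h]) (by norm_num) P
    rw [hm] at hprod
    have hce : c * e = 252 := by omega
    have h7 : 7 ∣ c := by
      rcases (show Nat.Prime 7 by norm_num).dvd_mul.mp (show 7 ∣ c * e by rw [hce]; norm_num) with h' | h'
      · exact h'
      · exact absurd (h'.trans hed) (by norm_num)
    have : Fact (Nat.Prime 7) := ⟨by norm_num⟩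
    obtain ⟨⟨u, huC⟩, hu⟩ := exists_prime_orderOf_dvd_card' (G := ↥(centralizer ((P : Subgroup G) : Set G))) 7
      (hC ▸ h7.mul_left 19)
    have hu' : orderOf u = 7 := (Subgroup.orderOf_coe _).trans hu
    have hu1 : u ≠ 1 := fun h' => by rw [h', orderOf_one] at hu'; exact absurd hu' (by norm_num)
    obtain ⟨g₀, hg₀⟩ := exists_smul_sylow_ne hG (p := 19) (h ▸ by norm_num) P
    have h2 : Nat.card (fixedBy (Sylow 19 G) u) < 96 := hm ▸ card_fixedBy_lt hg₀ hu1
    have h3 : Nat.card (fixedBy (Sylow 19 G) u) % 19 = 1 := card_fixedBy_sylow_modEq_one P huC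
    have h4 : 96 % 7 = Nat.card (fixedBy (Sylow 19 G) u) % 7 :=
      hm ▸ card_modEq_card_fixedBy (IsPGroup.of_card (n := 1) (by rw [Nat.card_zpowers, hu', pow_one]))
    omega
  · exact hm

theorem data [Fact (Nat.Prime 19)] (P : Sylow 19 G) :
    ∃ c e, Nat.card ↥(centralizer ((P : Subgroup G) : Set G)) = 19 * c ∧
      Nat.card ↥(normalizer ((P : Subgroup G) : Set G)) = 19 * c * e ∧
      ((c = 12 ∧ e = 2) ∨ (c = 8 ∧ e = 3) ∨ (c = 4 ∧ e = 6)) := by
  obtain ⟨c, e, hC, hN, he, hed, hprod⟩ := sylow_prime_data (noncomm h) (p := 19) (m := 24192) (by rw [h]) (by norm_num) P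
  rw [card_sylow_nineteen h] at hprod
  have hce : c * e = 24 := by omega
  refine ⟨c, e, hC, hN, ?_⟩
  have := Nat.le_of_dvd (by norm_num) hed
  interval_cases e <;> omega

/-- The centraliser of an involution centralising a Sylow 19-subgroup normalises it. -/
theorem centralizer_le [Fact (Nat.Prime 19)] (P : Sylow 19 G) {t : G} (ht : orderOf t = 2)
    (htC : t ∈ centralizer ((P : Subgroup G) : Set G)) :
    centralizer ({t} : Set G) ≤ normalizer ((P : Subgroup G) : Set G) := by
  classical
  have hG := noncomm h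
  have : Fact (Nat.Prime 2) := ⟨Nat.prime_two⟩
  set C := centralizer ({t} : Set G) with hCdef
  have hPC : (P : Subgroup G) ≤ C := fun y hy => by
    rw [hCdef, mem_centralizer_singleton]; exact mem_centralizer_iff.mp htC y hy
  set N := normalizer ((P : Subgroup G) : Set G) with hNdef
  have hnC : Nat.card (Sylow 19 C) = N.relIndex C := SylowNumber.card_sylow_subgroup P hPC
  obtain ⟨c, e, -, hN, hce⟩ := data h P
  have hN' : Nat.card N = 456 := by
    rw [hN]; rcases hce with ⟨rfl, rfl⟩ | ⟨rfl, rfl⟩ | ⟨rfl, rfl⟩ <;> norm_num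
  have hcardC : N.relIndex C * Nat.card ↥(N ⊓ C : Subgroup G) = Nat.card C := by
    have h' := relIndex_mul_relIndex ⊥ (N ⊓ C) C bot_le inf_le_right
    rw [relIndex_bot_left, relIndex_bot_left, inf_relIndex_right] at h'
    rw [mul_comm]; exact h'
  have htN : t ∈ N ⊓ C := ⟨centralizer_le_normalizer _ htC, mem_centralizer_singleton.mpr rfl⟩
  obtain ⟨m, hm, hm24, hm2⟩ : ∃ m, Nat.card ↥(N ⊓ C : Subgroup G) = 19 * m ∧ m ∣ 24 ∧ 2 ∣ m := by
    have h19 : 19 ∣ Nat.card ↥(N ⊓ C : Subgroup G) := by
      have := card_dvd_of_le (le_inf le_normalizer hPC : (P : Subgroup G) ≤ N ⊓ C)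
      rwa [card_sylow_eq (p := 19) (a := 1) (m := 24192) (by rw [h]; norm_num) (by norm_num) P, pow_one] at this
    obtain ⟨m, hm⟩ := h19
    refine ⟨m, hm, (Nat.mul_dvd_mul_iff_left (show 0 < 19 by norm_num)).mp
      (hm ▸ (card_dvd_of_le inf_le_left).trans (dvd_of_eq (hN'.trans (by norm_num)))), ?_⟩
    exact ((Nat.prime_two.dvd_mul).mp (hm ▸ ht ▸ Subgroup.orderOf_dvd_natCard _ htN)).resolve_left (by norm_num)
  have hCd : Nat.card C ∣ 459648 := h ▸ card_subgroup_dvd_card C
  have hmem : N.relIndex C = 1 ∨ N.relIndex C = 96 ∨ N.relIndex C = 1008 := by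
    have h19 : N.relIndex C % 19 = 1 % 19 := hnC ▸ card_sylow_modEq_one 19 C
    have hle : N.relIndex C ≤ 1008 := by
      rw [← card_sylow_nineteen h, P.card_eq_index_normalizer, ← relIndex_top_right]
      exact relIndex_le_of_le_right le_top index_ne_zero_of_finite
    have hd : N.relIndex C ∣ 459648 := (Dvd.intro _ hcardC).trans hCd
    obtain ⟨j, hj⟩ : ∃ j, N.relIndex C = 19 * j + 1 := ⟨_, by
      have := Nat.div_add_mod (N.relIndex C) 19; rw [h19] at this; exact this.symm⟩
    rw [hj] at hd hle ⊢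
    have hall : ∀ i ∈ Finset.range 54, 459648 % (19 * i + 1) = 0 →
        19 * i + 1 = 1 ∨ 19 * i + 1 = 96 ∨ 19 * i + 1 = 1008 := by decide +kernel
    exact hall j (Finset.mem_range.mpr (by omega)) (Nat.mod_eq_zero_of_dvd hd)
  have hCtop : C ≠ ⊤ := fun htop => by
    have hz : t ∈ center G := mem_center_iff.mpr fun g => mem_centralizer_singleton.mp (htop ▸ mem_top g : g ∈ C)
    rw [eq_bot_of_normal (inferInstance : (center G).Normal) (fun hc => hG (IsMulCommutative.of_comm fun a b =>
      (mem_center_iff.mp (hc ▸ mem_top a) b).symm)), mem_bot] at hz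
    rw [hz, orderOf_one] at ht
    exact absurd ht (by norm_num)
  rw [hm] at hcardC
  rcases hmem with h1 | h1 | h1
  · exact relIndex_eq_one.mp h1
  · exfalso
    rw [h1] at hcardC
    have hm12 : m ∣ 12 := by
      have h252 : m ∣ 252 := (Nat.mul_dvd_mul_iff_left (show 0 < 1824 by norm_num)).mp (by
        rw [show 1824 * m = 96 * (19 * m) by ring, hcardC]; exact hCd)
      exact (Nat.dvd_gcd hm24 h252).trans (by norm_num)
    have hm246 : m = 2 ∨ m = 4 ∨ m = 6 := by
      have := Nat.le_of_dvd (by norm_num) hm12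
      have hne : m ≠ 12 := by
        rintro rfl
        -- index 21
        have hidx : C.index = 21 := by
          have h' := card_mul_index C
          rw [← hcardC, h] at h'
          omega
        have hα : Nat.card (G ⧸ C) = 21 := (index_eq_card C).symm.trans hidx
        have := Fintype.ofFinite (G ⧸ C)
        obtain ⟨⟨y, hy⟩, hy19⟩ := exists_prime_orderOf_dvd_card' (G := ↥(P : Subgroup G)) 19
          (dvd_of_eq ((card_sylow_eq (p := 19) (a := 1) (m := 24192) (by rw [h]; norm_num) (by norm_num) P).trans (pow_one 19)).symm)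
        have hy' : orderOf y = 19 := (Subgroup.orderOf_coe _).trans hy19
        have hzp : IsPGroup 19 (zpowers y) := IsPGroup.of_card (n := 1) (by rw [Nat.card_zpowers, hy', pow_one])
        have htp : IsPGroup 2 (zpowers t) := IsPGroup.of_card (n := 1) (by rw [Nat.card_zpowers, ht, pow_one])
        obtain ⟨a₀, g₀, hg₀⟩ : ∃ (a₀ : G ⧸ C) (g₀ : G), g₀ • a₀ ≠ a₀ := by
          refine ⟨((1 : G) : G ⧸ C), ?_⟩
          by_contra hcon
          push Not at hcon
          refine hCtop (eq_top_iff.mpr fun g _ => ?_)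
          have hg : ((g * 1 : G) : G ⧸ C) = ((1 : G) : G ⧸ C) := hcon g
          rw [mul_one] at hg
          have := QuotientGroup.eq.mp hg.symm
          simpa using this
        have hyne : y ≠ 1 := fun h' => by rw [h', orderOf_one] at hy'; exact absurd hy' (by norm_num)
        have htne : t ≠ 1 := fun h' => by rw [h', orderOf_one] at ht; exact absurd ht (by norm_num)
        have hfy : Nat.card (fixedBy (G ⧸ C) y) = 2 := by
          have h2 : Nat.card (fixedBy (G ⧸ C) y) < 21 := hα ▸ card_fixedBy_lt hg₀ hyne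
          have h3 : 21 % 19 = Nat.card (fixedBy (G ⧸ C) y) % 19 := hα ▸ card_modEq_card_fixedBy hzp
          omega
        have hft : Nat.card (fixedBy (G ⧸ C) t) = 21 ∨ Nat.card (fixedBy (G ⧸ C) t) ≤ 19 := by
          rcases Nat.lt_or_ge (Nat.card (fixedBy (G ⧸ C) t)) 20 with h' | h'
          · exact Or.inr (by omega)
          · have := four_dvd_moved hG (α := G ⧸ C) (g := t) (ht ▸ pow_orderOf_eq_one t)
            rw [hα] at this
            have : Nat.card (fixedBy (G ⧸ C) t) ≤ 21 := hα ▸ Nat.card_le_card_of_injective _ Subtype.val_injective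
            exact Or.inl (by omega)
        have hft' : Nat.card (fixedBy (G ⧸ C) t) ≤ 17 := by
          have := four_dvd_moved hG (α := G ⧸ C) (g := t) (ht ▸ pow_orderOf_eq_one t)
          rw [hα] at this
          have h2 : Nat.card (fixedBy (G ⧸ C) t) < 21 := hα ▸ card_fixedBy_lt hg₀ htne
          omega
        -- the long orbit
        have hcomm : t * y = y * t := (mem_centralizer_iff.mp htC y hy).symm
        set s := Finset.univ.filter fun a : G ⧸ C => y • a ≠ a with hs
        have hscard : s.card = 19 := by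
          have h' := Finset.card_filter_add_card_filter_not (s := (Finset.univ : Finset (G ⧸ C))) (fun a => y • a = a)
          rw [Finset.card_univ, ← Nat.card_eq_fintype_card, hα] at h'
          have h'' : (Finset.univ.filter fun a : G ⧸ C => y • a = a).card = 2 := by
            rw [← hfy, Nat.card_eq_fintype_card]; exact (Fintype.card_subtype _).symm
          rw [h''] at h'
          simp only [hs, ne_eq]
          omega
        have hinv : ∀ g : G, g * y = y * g → ∀ a ∈ s, g • a ∈ s := by
          intro g hg a ha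
          simp only [hs, Finset.mem_filter, Finset.mem_univ, true_and] at ha ⊢
          intro h'
          apply ha
          rw [← mul_smul, ← hg, mul_smul] at h'
          exact smul_left_cancel g h'
        have hz : ∀ x : G, x * y = y * x → ∀ g ∈ zpowers x, g * y = y * g := fun x hx g hg => by
          obtain ⟨i, rfl⟩ := mem_zpowers_iff.mp hg
          exact ((show Commute x y from hx).zpow_left i).eq
        set Z := s.filter fun a => ∀ g ∈ zpowers t, g • a = a with hZ
        have h2 : s.card ≡ Z.card [MOD 2] := card_modEq_card_filter htp s fun g hg a ha => hinv g (hz t hcomm g hg) a ha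
        have h19 : Z.card ≡ 0 [MOD 19] := by
          refine (card_modEq_card_filter hzp Z fun g hg a ha => ?_).trans ?_
          · rw [hZ, Finset.mem_filter] at ha ⊢
            refine ⟨hinv g (hz y rfl g hg) a ha.1, fun k hk => ?_⟩
            have hkg : k * g = g * k := by
              obtain ⟨i, rfl⟩ := mem_zpowers_iff.mp hg
              exact ((show Commute k y from hz t hcomm k hk).zpow_right i).eq
            rw [smul_smul, hkg, mul_smul, ha.2 k hk]
          · rw [Finset.card_eq_zero.mpr (Finset.filter_eq_empty_iff.mpr fun a ha hfix => ?_)]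
            exact (Finset.mem_filter.mp (Finset.mem_filter.mp ha).1).2 (hfix y (mem_zpowers y))
        have hle : Z.card ≤ 19 := hscard ▸ Finset.card_filter_le _ _
        have hZ19 : Z.card = 19 := by
          rw [hscard] at h2
          have a1 : 19 % 2 = Z.card % 2 := h2
          have a2 : Z.card % 19 = 0 := h19
          omega
        have : Z.card ≤ Nat.card (fixedBy (G ⧸ C) t) := by
          rw [Nat.card_eq_fintype_card]
          refine le_trans (Finset.card_le_card fun a ha => ?_) (le_of_eq (Fintype.card_subtype _).symm)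
          exact Finset.mem_filter.mpr ⟨Finset.mem_univ _, (Finset.mem_filter.mp ha).2 t (mem_zpowers t)⟩
        omega
      have hm0 : m ≠ 0 := fun h0 => by subst h0; simp at hm12
      interval_cases m <;> omega
    set K := zpowers (⟨t, mem_centralizer_singleton.mpr rfl⟩ : C) with hK
    have hKc : K ≤ center C := zpowers_le.mpr (mem_center_iff.mpr fun g => Subtype.ext (mem_centralizer_singleton.mp g.2))
    have : K.Normal := ⟨fun x hx g => by
      rw [mem_center_iff.mp (hKc hx) g, mul_inv_cancel_right]; exact hx⟩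
    apply card_sylow_ne (X := C ⧸ K) ?_ ((card_sylow_quotient K hKc).trans (hnC.trans h1))
    have hq := card_eq_card_quotient_mul_card_subgroup K
    rw [hK, Nat.card_zpowers, ← Subgroup.orderOf_coe, ht, ← hcardC] at hq
    rw [hK]
    rcases hm246 with rfl | rfl | rfl
    · exact Or.inl ⟨2, by omega⟩
    · exact Or.inl ⟨1, by omega⟩
    · exact Or.inr ⟨1, by omega⟩
  · exfalso
    rw [h1] at hcardC
    have hidx : C.index ≤ 12 := by
      have h' := card_mul_index C
      rw [← hcardC, h] at h'
      have : 2 ≤ m := Nat.le_of_dvd (Nat.pos_of_ne_zero fun h0 => by subst h0; simp at hm24) hm2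
      nlinarith
    exact absurd hidx (not_le.mpr (index_gt hG hCtop (by rw [h]; decide)))

theorem false_of_card : False := by
  have : Fact (Nat.Prime 19) := ⟨by norm_num⟩
  have : Fact (Nat.Prime 2) := ⟨Nat.prime_two⟩
  obtain ⟨P⟩ := (inferInstance : Nonempty (Sylow 19 G))
  obtain ⟨c, e, hC, hN, hce⟩ := data h P
  obtain ⟨a, b, hca, hab, hb⟩ : ∃ a b, (∃ r, c = 2 ^ a * r ∧ ¬ 2 ∣ r) ∧ 2 ≤ a ∧ b = 3 ∧ 19 * c * e = 456 := by
    rcases hce with ⟨rfl, rfl⟩ | ⟨rfl, rfl⟩ | ⟨rfl, rfl⟩
    · exact ⟨2, 3, ⟨3, by norm_num⟩, le_rfl, rfl, by norm_num⟩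
    · exact ⟨3, 3, ⟨1, by norm_num⟩, by norm_num, rfl, by norm_num⟩
    · exact ⟨2, 3, ⟨1, by norm_num⟩, le_rfl, rfl, by norm_num⟩
  obtain ⟨rfl, hN456⟩ := hb
  set CP := centralizer ((P : Subgroup G) : Set G)
  set N := normalizer ((P : Subgroup G) : Set G) with hNdef
  obtain ⟨S₀, hS₀⟩ := Sylow.exists_subgroup_card_pow_prime 2 (n := a) (G := CP) (by
    obtain ⟨r, hr, -⟩ := hca
    rw [hC, hr]; exact (dvd_mul_right _ r).mul_left 19)
  set S := S₀.map CP.subtype with hS
  have hSC : S ≤ CP := map_subtype_le _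
  have hScard : Nat.card S = 2 ^ a := by rw [hS, card_map_of_injective (subtype_injective _), hS₀]
  have hSN : S ≤ N := hSC.trans (centralizer_le_normalizer _)
  have hSp : IsPGroup 2 ↥(S.subgroupOf N) :=
    IsPGroup.of_card (n := a) (by rw [Nat.card_congr (subgroupOfEquivOfLe hSN).toEquiv, hScard])
  obtain ⟨W₀, hW₀⟩ := hSp.exists_le_sylow
  set W := (W₀ : Subgroup N).map N.subtype with hW
  have hWcard : Nat.card W = 2 ^ 3 := by
    rw [hW, card_map_of_injective (subtype_injective _)]
    exact card_sylow_eq (m := 57) (by rw [hN, hN456]; norm_num) (by norm_num) W₀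
  have hSW : S ≤ W := fun x hx => ⟨⟨x, hSN hx⟩, hW₀ hx, rfl⟩
  have hWN : W ≤ N := map_subtype_le _
  obtain ⟨T, hT⟩ := (IsPGroup.of_card (n := 3) hWcard : IsPGroup 2 W).exists_le_sylow
  have hTcard := card_sylow_eq (p := 2) (a := 7) (m := 3591) (by rw [h]; norm_num) (by norm_num) T
  -- an element of `T` normalising `W` outside `W`
  have hlt : W.subgroupOf (T : Subgroup G) < normalizer ((W.subgroupOf (T : Subgroup G) : Subgroup ↥(T : Subgroup G)) : Set ↥(T : Subgroup G)) := by
    have : Group.IsNilpotent ↥(T : Subgroup G) := T.isPGroup'.isNilpotent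
    refine Group.normalizerCondition_of_isNilpotent _ (lt_top_iff_ne_top.mpr fun htop => ?_)
    have := card_dvd_of_le (subgroupOf_eq_top.mp htop)
    rw [hWcard, hTcard] at this
    exact absurd this (by norm_num)
  obtain ⟨⟨g, hgT⟩, hgn, hgW⟩ := SetLike.exists_of_lt hlt
  have hgW' : g ∉ W := hgW
  have hgWn : ∀ x ∈ W, g * x * g⁻¹ ∈ W := fun x hx => (mem_normalizer_iff.mp hgn ⟨x, hT hx⟩).mp hx
  -- `g` does not normalise `P`
  have hgN : g ∉ N := by
    intro hg
    have hg2 : IsPGroup 2 ↥(W₀ : Subgroup N) := W₀.isPGroup'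
    have hzg : IsPGroup 2 ↥((zpowers g).subgroupOf N) := by
      have : IsPGroup 2 (zpowers g) := T.isPGroup'.to_le (zpowers_le.mpr hgT)
      exact this.comap_subtype
    have hnorm : (zpowers g).subgroupOf N ≤ normalizer ((W₀ : Subgroup N) : Set N) := by
      intro x hx
      rw [mem_normalizer_iff]
      have key : ∀ y : G, y ∈ zpowers g → ∀ w ∈ W, y * w * y⁻¹ ∈ W := by
        intro y hy
        have hmem : y ∈ normalizer (W : Set G) := by
          refine zpowers_le.mpr ?_ hy
          rw [mem_normalizer_iff_map_conj_eq]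
          refine eq_of_le_of_card_ge ?_ (le_of_eq (card_map_of_injective (MulAut.conj g).injective).symm)
          rintro _ ⟨w, hw, rfl⟩
          exact hgWn w hw
        exact fun w hw => (mem_normalizer_iff.mp hmem w).mp hw
      intro w
      constructor
      · intro hw
        obtain ⟨v, hv, hve⟩ := key x hx (w : G) ⟨w, hw, rfl⟩
        exact (Subtype.ext hve : v = x * w * x⁻¹) ▸ hv
      · intro hw
        obtain ⟨v, hv, hve⟩ := key (x : G)⁻¹ (inv_mem hx) ((x * w * x⁻¹ : N) : G) ⟨_, hw, rfl⟩
        have : v = w := Subtype.ext (by rw [show (v : G) = _ from hve]; simp [mul_assoc])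
        exact this ▸ hv
    have := (IsPGroup.inf_normalizer_sylow hzg W₀).le ⟨show (⟨g, hg⟩ : N) ∈ (zpowers g).subgroupOf N from mem_zpowers g,
      hnorm (show (⟨g, hg⟩ : N) ∈ (zpowers g).subgroupOf N from mem_zpowers g)⟩
    exact hgW' ⟨⟨g, hg⟩, this.2, rfl⟩
  -- two conjugates of `S` inside `W` meet
  set S' := S.map (MulAut.conj g).toMonoidHom with hS'
  have hS'W : S' ≤ W := by rintro _ ⟨x, hx, rfl⟩; exact hgWn x (hSW hx)
  have hS'card : Nat.card S' = 2 ^ a := by rw [hS', card_map_of_injective (MulAut.conj g).injective, hScard]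
  have hne : S ⊓ S' ≠ ⊥ := by
    intro hbot
    have hh : Nat.card (↥S × ↥S') ≤ Nat.card ↥W := by
      refine Nat.card_le_card_of_injective
        (fun x : ↥S × ↥S' => (⟨(x.1 : G) * x.2, mul_mem (hSW x.1.2) (hS'W x.2.2)⟩ : ↥W)) fun x y hxy => ?_
      have he : (x.1 : G) * x.2 = y.1 * y.2 := congrArg Subtype.val hxy
      have hmem : (y.1 : G)⁻¹ * x.1 ∈ S ⊓ S' := by
        refine Subgroup.mem_inf.mpr ⟨S.mul_mem (S.inv_mem y.1.2) x.1.2, ?_⟩
        have h' : (y.1 : G)⁻¹ * x.1 = (y.2 : G) * (x.2 : G)⁻¹ := by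
          calc (y.1 : G)⁻¹ * x.1 = (y.1 : G)⁻¹ * ((x.1 : G) * x.2) * (x.2 : G)⁻¹ := by group
            _ = (y.2 : G) * (x.2 : G)⁻¹ := by rw [he]; group
        rw [h']
        exact S'.mul_mem y.2.2 (S'.inv_mem x.2.2)
      rw [hbot, mem_bot, inv_mul_eq_one] at hmem
      have h1 : x.1 = y.1 := Subtype.ext hmem.symm
      refine Prod.ext h1 (Subtype.ext ?_)
      rw [h1] at he
      exact mul_left_cancel he
    rw [Nat.card_prod, hScard, hS'card, hWcard] at hh
    have := Nat.pow_le_pow_right (show 0 < 2 by norm_num) hab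
    nlinarith
  obtain ⟨v, hv, hv1⟩ := (ne_bot_iff_exists_ne_one.mp hne) |> fun ⟨x, hx⟩ => (⟨(x : G), x.2, fun he => hx (Subtype.ext he)⟩ : ∃ v : G, v ∈ S ⊓ S' ∧ v ≠ 1)
  have hvd : orderOf v ∣ 2 ^ a := hScard ▸ Subgroup.orderOf_dvd_natCard _ hv.1
  have hv2 : 2 ∣ orderOf v := by
    obtain ⟨i, -, hi⟩ := (Nat.dvd_prime_pow Nat.prime_two).mp hvd
    rcases i with _ | i
    · exact absurd (orderOf_eq_one_iff.mp hi) hv1
    · exact hi ▸ dvd_pow_self 2 (Nat.succ_ne_zero i)
  set t := v ^ (orderOf v / 2) with ht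
  have hto : orderOf t = 2 := by
    have hpos := (isOfFinOrder_of_finite v).orderOf_pos
    rw [ht, orderOf_pow' v (Nat.pos_of_dvd_of_pos (Nat.div_dvd_of_dvd hv2) hpos).ne',
      Nat.gcd_eq_right (Nat.div_dvd_of_dvd hv2)]
    exact Nat.div_div_self hv2 hpos.ne'
  have htC : t ∈ CP := pow_mem (hSC hv.1) _
  -- both `P` and its conjugate centralise `t`
  have hle := centralizer_le h P hto htC
  have hconjle : ((g • P : Sylow 19 G) : Subgroup G) ≤ centralizer ({t} : Set G) := by
    obtain ⟨u, hu, hut⟩ : ∃ u ∈ S, g * u * g⁻¹ = t := by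
      obtain ⟨u, hu, hue⟩ := pow_mem hv.2 (orderOf v / 2)
      exact ⟨u, hu, hue⟩
    intro x hx
    rw [Sylow.coe_subgroup_smul, mem_pointwise_smul_iff_inv_smul_mem, ← map_inv, MulAut.smul_def,
      MulAut.conj_apply, inv_inv] at hx
    have h1 := mem_centralizer_iff.mp (hSC hu) _ hx
    rw [mem_centralizer_singleton, ← hut]
    calc x * (g * u * g⁻¹) = g * (g⁻¹ * x * g * u) * g⁻¹ := by group
      _ = g * (u * (g⁻¹ * x * g)) * g⁻¹ := by rw [h1]
      _ = g * u * g⁻¹ * x := by group
  have heq : g • P = P := sylow_eq_of_le fun x hx =>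
    ((IsPGroup.inf_normalizer_sylow (g • P).isPGroup' P).le ⟨hx, hle (hconjle hx)⟩).2
  exact hgN (Sylow.smul_eq_iff_mem_normalizer.mp heq)

end

end CfsgLib.SmallGroups.Order459648
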